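/-
Isolated involutions: counting the conjugates and the inverted elements of odd order.
-/
import Cfsg.Agent.Inv.Isolated

set_option autoImplicit false

namespace CL.Inv

open Cfsg

variable {G : Type*} [Group G]

theorem card_isConj_eq_index (z : G) :
    Nat.card {t : G // IsConj z t} = (Subgroup.centralizer ({z} : Set G)).index := by
  let f : G ⧸ Subgroup.centralizer ({z} : Set G) → {t : G // IsConj z t} :=
    Quotient.lift (fun g => ⟨g * z * g⁻¹, isConj_iff.2 ⟨g, rfl⟩⟩) (by
      intro a b hab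
      have h : a⁻¹ * b * z = z * (a⁻¹ * b) :=
        Subgroup.mem_centralizer_singleton_iff.1 (QuotientGroup.leftRel_apply.1 hab)
      apply Subtype.ext
      calc a * z * a⁻¹ = a * (z * (a⁻¹ * b)) * b⁻¹ := by group
        _ = b * z * b⁻¹ := by rw [← h]; group)
  refine (Nat.card_congr (Equiv.ofBijective f ⟨?_, ?_⟩)).symm
  · intro a b hab
    obtain ⟨a, rfl⟩ := QuotientGroup.mk_surjective a
    obtain ⟨b, rfl⟩ := QuotientGroup.mk_surjective b
    have h : a * z * a⁻¹ = b * z * b⁻¹ := congrArg Subtype.val hab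
    rw [QuotientGroup.eq, Subgroup.mem_centralizer_singleton_iff]
    calc a⁻¹ * b * z = a⁻¹ * (b * z * b⁻¹) * b := by group
      _ = _ := by rw [← h]; group
  · rintro ⟨t, ht⟩
    obtain ⟨g, rfl⟩ := isConj_iff.1 ht
    exact ⟨QuotientGroup.mk g, rfl⟩

/-- The inverted elements of odd order with a property `A` correspond to the conjugates with a property `B`, when
`A k` means `B (k * z * k⁻¹)`. -/
theorem isolated_card_inverted [Finite G] {z : G} (hz : IsIsolatedInvolution z) (A B : G → Prop)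
    (h : ∀ k : G, Odd (orderOf k) → z * k * z⁻¹ = k⁻¹ → (A k ↔ B (k * z * k⁻¹))) :
    Nat.card {k : G // Odd (orderOf k) ∧ z * k * z⁻¹ = k⁻¹ ∧ A k} = Nat.card {t : G // IsConj z t ∧ B t} := by
  let f : {k : G // Odd (orderOf k) ∧ z * k * z⁻¹ = k⁻¹ ∧ A k} → {t : G // IsConj z t ∧ B t} :=
    fun k => ⟨k.1 * z * k.1⁻¹, isConj_iff.2 ⟨k.1, rfl⟩, (h k.1 k.2.1 k.2.2.1).1 k.2.2.2⟩
  refine Nat.card_congr (Equiv.ofBijective f ⟨?_, ?_⟩)
  · rintro ⟨k, hk1, hk2, hk3⟩ ⟨l, hl1, hl2, hl3⟩ hkl
    exact Subtype.ext (eq_of_conj_eq_of_inverted hk1 hk2 hl1 hl2 (congrArg Subtype.val hkl))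
  · rintro ⟨t, ht, htB⟩
    obtain ⟨m, h1, h2, h3⟩ := isolated_exists_inverted hz ht
    exact ⟨⟨_, h1, h2, (h _ h1 h2).2 (h3.symm ▸ htB)⟩, Subtype.ext h3⟩

theorem isolated_card_inverted_commute [Finite G] {z x : G} (hz : IsIsolatedInvolution z) (hx : Commute x z) :
    Nat.card {k : G // Odd (orderOf k) ∧ z * k * z⁻¹ = k⁻¹ ∧ Commute k x} =
      Nat.card {t : G // IsConj z t ∧ Commute t x} := by
  apply isolated_card_inverted hz
  intro k hk hkz
  constructor
  · intro h
    exact (h.mul_left hx.symm).mul_left h.inv_left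
  · intro h
    rw [conj_eq_sq_mul_of_inverts hkz] at h
    apply commute_of_commute_sq hk
    have := h.mul_left hx.symm.inv_left
    rwa [mul_inv_cancel_right] at this

/-- For an involution `s` commuting with the isolated involution `z`, each conjugate `t` of `z` determines one
conjugate `u` of `z` commuting with `s` such that `t` commutes with `s * u`. -/
theorem isolated_existsUnique_fibre [Finite G] {z s t : G} (hz : IsIsolatedInvolution z) (hs : s * s = 1)
    (hsz : Commute s z) (ht : IsConj z t) : ∃! u : G, (IsConj z u ∧ Commute u s) ∧ Commute t (s * u) := by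
  have hz2 := isolated_mul_self hz
  have ht2 := mul_self_of_isConj hz2 ht
  apply existsUnique_of_exists_of_unique
  · rcases Nat.even_or_odd (orderOf (s * t)) with heven | hodd
    · have e : orderOf (s * t) = orderOf (t * s) := by
        rw [← orderOf_conj t (s * t)]
        congr 1; group
      obtain ⟨j, hj⟩ := isolated_odd_half (isolated_of_isConj hz ht) hs (e ▸ heven)
      rw [← e] at hj
      obtain ⟨hw, hws, hwt⟩ := half_pow_central hs ht2 (orderOf_pos _).ne' heven
      have h1 := isConj_mul_zpow_odd hs ht2 (j : ℤ)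
      have e2 : (s * t) ^ (2 * (j : ℤ) + 1) = (s * t) ^ (orderOf (s * t) / 2) := by
        rw [hj, ← zpow_natCast]; congr 1
      rw [e2] at h1
      refine ⟨_, ⟨ht.trans h1, (Commute.refl s).mul_left hws⟩, ?_⟩
      rw [← mul_assoc, hs, one_mul]
      exact hwt.symm
    · have h1 : s = z := isolated_eq_of_isConj hz (ht.trans (isConj_of_odd_mul hs ht2 hodd).symm) hsz.symm
      exact ⟨z, ⟨IsConj.refl z, hsz.symm⟩, by rw [h1, hz2]; exact Commute.one_right t⟩
  · have key : ∀ u : G, IsConj z u → Commute u s → Commute t (s * u) → ∀ m : ℕ, orderOf (u * t) ∣ 2 * m + 1 →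
        (s * t) ^ (2 * m + 1) = s * u := by
      intro u hu hus htu m hm
      have hu2 := mul_self_of_isConj hz2 hu
      have e : s * t = (s * u) * (u * t) := by
        calc s * t = s * (u * u) * t := by rw [hu2, mul_one]
          _ = _ := by group
      have hc : Commute (s * u) (u * t) := ((hus.symm.mul_left (Commute.refl u))).mul_right htu.symm
      have h2 : (s * u) ^ 2 = 1 := by rw [hus.symm.mul_pow, pow_two, pow_two, hs, hu2, one_mul]
      rw [e, hc.mul_pow, orderOf_dvd_iff_pow_eq_one.1 hm, mul_one, pow_succ, pow_mul, h2, one_pow, one_mul]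
    rintro u v ⟨⟨hu, hus⟩, htu⟩ ⟨⟨hv, hvs⟩, htv⟩
    obtain ⟨m, hm⟩ := (isolated_odd_mul' hz hu ht).mul (isolated_odd_mul' hz hv ht)
    have h1 := key u hu hus htu m (hm ▸ dvd_mul_right _ _)
    have h2 := key v hv hvs htv m (hm ▸ dvd_mul_left _ _)
    exact mul_left_cancel (h1.symm.trans h2)

theorem isolated_card_conj_eq_mul [Finite G] {z s : G} (hz : IsIsolatedInvolution z) (hs : s * s = 1)
    (hsz : Commute s z) :
    Nat.card {t : G // IsConj z t} =
      Nat.card {t : G // IsConj z t ∧ Commute t (s * z)} * Nat.card {t : G // IsConj z t ∧ Commute t s} := by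
  classical
  have e1 : {t : G // IsConj z t} ≃
      Σ u : {u : G // IsConj z u ∧ Commute u s}, {t : G // IsConj z t ∧ Commute t (s * u.1)} := by
    refine (Equiv.ofBijective (fun p => ⟨p.2.1, p.2.2.1⟩) ⟨?_, ?_⟩).symm
    · rintro ⟨⟨u, hu⟩, ⟨t, ht, htu⟩⟩ ⟨⟨v, hv⟩, ⟨t', ht', htv⟩⟩ h
      have h' : t = t' := congrArg Subtype.val h
      subst h'
      have huv : u = v := (isolated_existsUnique_fibre hz hs hsz ht).unique ⟨hu, htu⟩ ⟨hv, htv⟩
      subst huv
      rfl
    · rintro ⟨t, ht⟩
      obtain ⟨u, hu, -⟩ := isolated_existsUnique_fibre hz hs hsz ht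
      exact ⟨⟨⟨u, hu.1⟩, ⟨t, ht, hu.2⟩⟩, rfl⟩
  have e2 : ∀ u : {u : G // IsConj z u ∧ Commute u s},
      Nat.card {t : G // IsConj z t ∧ Commute t (s * u.1)} = Nat.card {t : G // IsConj z t ∧ Commute t (s * z)} := by
    rintro ⟨u, hu, hus⟩
    obtain ⟨m, hm⟩ := isolated_exists_pow_conj hz (IsConj.refl z) hu
    have hc : Commute ((z * u) ^ m) s := (hsz.symm.mul_left hus).pow_left m
    set c := (z * u) ^ m
    have hsu : s * u = c * (s * z) * c⁻¹ := by rw [← hm, ← mul_assoc c s, hc.eq]; group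
    refine Nat.card_congr (Equiv.subtypeEquiv (MulAut.conj c⁻¹).toEquiv fun t => ?_)
    simp only [MulEquiv.toEquiv_eq_coe, EquivLike.coe_coe, MulAut.conj_apply, inv_inv]
    rw [hsu]
    constructor
    · rintro ⟨h1, h2⟩
      refine ⟨h1.trans (isConj_iff.2 ⟨c⁻¹, by rw [inv_inv]⟩), ?_⟩
      have := h2.conj c⁻¹
      convert this using 1 <;> group
    · rintro ⟨h1, h2⟩
      refine ⟨h1.trans (isConj_iff.2 ⟨c, by group⟩), ?_⟩
      have := h2.conj c
      convert this using 1; group
  have : Fintype {u : G // IsConj z u ∧ Commute u s} := Fintype.ofFinite _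
  rw [Nat.card_congr e1, Nat.card_sigma, Finset.sum_congr rfl (fun u _ => e2 u), Finset.sum_const, smul_eq_mul,
    Finset.card_univ, ← Nat.card_eq_fintype_card, mul_comm]

end CL.Inv
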