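/-
Groups all of whose elements have order at most 6 (S4007), part A: basics and the almost simple quotient.
-/
import Cfsg.Agent.Char.Burnside
import Cfsg.Agent.Grp.MinNormal
import Cfsg.Agent.Known.AltAut
import Cfsg.Agent.Known.AltThree
import Cfsg.Agent.Perm.PrimCharSimple

set_option autoImplicit false
open Cfsg CL.Grp Subgroup Equiv Equiv.Perm

namespace CL.OrdSix

universe u

/-- all elements have order at most 6 -/
def Ord6 (G : Type*) [Group G] : Prop := ∀ g : G, orderOf g ≤ 6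

section Basic

variable {G H : Type*} [Group G] [Group H]

theorem Ord6.of_inj (h : Ord6 G) (f : H →* G) (hf : Function.Injective f) : Ord6 H := fun g =>
  orderOf_injective f hf g ▸ h _

theorem Ord6.sub (h : Ord6 G) (K : Subgroup G) : Ord6 K := h.of_inj K.subtype K.subtype_injective

variable [Finite G]

theorem Ord6.of_surj (h : Ord6 G) (f : G →* H) (hf : Function.Surjective f) : Ord6 H := fun g => by
  obtain ⟨x, rfl⟩ := hf g
  exact (Nat.le_of_dvd (orderOf_pos x) (orderOf_map_dvd f x)).trans (h x)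

theorem Ord6.quot (h : Ord6 G) (N : Subgroup G) [N.Normal] : Ord6 (G ⧸ N) :=
  h.of_surj _ (QuotientGroup.mk'_surjective N)

namespace Ord6

variable (h : Ord6 G)
include h

theorem pow60 (g : G) : g ^ 60 = 1 := by
  have h1 := h g
  have h2 := orderOf_pos g
  rw [← orderOf_dvd_iff_pow_eq_one]
  interval_cases orderOf g <;> decide

theorem primes {p : ℕ} (hp : p.Prime) (hd : p ∣ Nat.card G) : p = 2 ∨ p = 3 ∨ p = 5 := by
  have := Fact.mk hp
  obtain ⟨x, hx⟩ := exists_prime_orderOf_dvd_card' p hd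
  have h1 := hx ▸ h x
  interval_cases p <;> simp_all (config := {decide := true})

theorem mul_le {x y : G} (hc : Commute x y) (hco : (orderOf x).Coprime (orderOf y)) :
    orderOf x * orderOf y ≤ 6 :=
  hc.orderOf_mul_eq_mul_orderOf_of_coprime hco ▸ h _

theorem five_cent {x y : G} (hx : orderOf x = 5) (hc : Commute x y) : y ^ 5 = 1 := by
  have h1 := h y
  have h2 := orderOf_pos y
  have h3 := h.mul_le hc
  rw [← orderOf_dvd_iff_pow_eq_one]
  rw [hx] at h3
  interval_cases orderOf y <;> simp_all (config := {decide := true})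

theorem four_cent {x y : G} (hx : orderOf x = 4) (hc : Commute x y) : y ^ 4 = 1 := by
  have h1 := h y
  have h2 := orderOf_pos y
  have h3 := h.mul_le hc
  have h4 := h.mul_le (hc.pow_right 2)
  rw [← orderOf_dvd_iff_pow_eq_one]
  rw [hx] at h3
  rw [hx, orderOf_pow' _ two_ne_zero] at h4
  interval_cases orderOf y <;> simp_all (config := {decide := true})

theorem pow_of_pow {p k e : ℕ} {g : G} (hg : g ^ p ^ k = 1)
    (he : ∀ n ≤ 6, n ∣ e ∨ ∃ r ≤ 6, r ∣ n ∧ r ≠ 1 ∧ r.Coprime p) : g ^ e = 1 := by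
  rcases he _ (h g) with h1 | ⟨r, -, h1, h2, h3⟩
  · exact orderOf_dvd_iff_pow_eq_one.1 h1
  · exact absurd (Nat.eq_one_of_dvd_coprimes (h3.pow_right k) dvd_rfl
      (h1.trans (orderOf_dvd_of_pow_eq_one hg))) h2

theorem two_el {k : ℕ} {g : G} (hg : g ^ 2 ^ k = 1) : g ^ 4 = 1 := h.pow_of_pow hg (by decide)

theorem three_el {k : ℕ} {g : G} (hg : g ^ 3 ^ k = 1) : g ^ 3 = 1 := h.pow_of_pow hg (by decide)

theorem five_el {k : ℕ} {g : G} (hg : g ^ 5 ^ k = 1) : g ^ 5 = 1 := h.pow_of_pow hg (by decide)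

theorem two_grp {P : Subgroup G} (hP : IsPGroup 2 P) {g : G} (hg : g ∈ P) : g ^ 4 = 1 :=
  let ⟨_, hk⟩ := hP ⟨g, hg⟩
  h.two_el (congrArg Subtype.val hk)

theorem three_grp {P : Subgroup G} (hP : IsPGroup 3 P) {g : G} (hg : g ∈ P) : g ^ 3 = 1 :=
  let ⟨_, hk⟩ := hP ⟨g, hg⟩
  h.three_el (congrArg Subtype.val hk)

theorem five_grp {P : Subgroup G} (hP : IsPGroup 5 P) {g : G} (hg : g ∈ P) : g ^ 5 = 1 :=
  let ⟨_, hk⟩ := hP ⟨g, hg⟩
  h.five_el (congrArg Subtype.val hk)

/-- an element of order 5 centralises no nontrivial element of order prime to 5 -/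
theorem eq_one {x y : G} (hx : orderOf x = 5) (hc : Commute x y) {k : ℕ} (hk : y ^ k = 1) (h5 : Nat.Coprime k 5) :
    y = 1 :=
  orderOf_eq_one_iff.1 (Nat.eq_one_of_dvd_coprimes h5 (orderOf_dvd_of_pow_eq_one hk)
    (orderOf_dvd_of_pow_eq_one (h.five_cent hx hc)))

theorem eq_five {x : G} (hx : 5 ∣ orderOf x) : orderOf x = 5 := by
  have h1 := h x
  have h2 := orderOf_pos x
  omega

theorem solv_of_five (h5 : ¬ 5 ∣ Nat.card G) : Group.IsSolvable G :=
  CL.Char.isSolvable_of_two_primes Nat.prime_two Nat.prime_three fun r hr hd => by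
    rcases h.primes hr hd with h1 | h1 | rfl
    exacts [.inl h1, .inr h1, absurd hd h5]

theorem solv_of_two (h2 : ¬ 2 ∣ Nat.card G) : Group.IsSolvable G :=
  CL.Char.isSolvable_of_two_primes Nat.prime_three Nat.prime_five fun r hr hd => by
    rcases h.primes hr hd with rfl | h1 | h1
    exacts [absurd hd h2, .inl h1, .inr h1]

theorem exists_five (hs : ¬ Group.IsSolvable G) : ∃ x : G, orderOf x = 5 :=
  have := Fact.mk Nat.prime_five
  exists_prime_orderOf_dvd_card' 5 (by_contra fun k => hs (h.solv_of_five k))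

theorem exists_two (hs : ¬ Group.IsSolvable G) : ∃ x : G, orderOf x = 2 :=
  exists_prime_orderOf_dvd_card' 2 (by_contra fun k => hs (h.solv_of_two k))

theorem not_comm {x y : G} (hx : orderOf x = 5) (hy : orderOf y = 2) : ¬ Commute x y := fun hc => by
  have := h.mul_le hc (by rw [hx, hy]; decide)
  rw [hx, hy] at this
  omega

/-- a nonsolvable minimal normal subgroup is simple -/
theorem simple_of_min {M : Subgroup G} (hM : IsMinNormal M) (hs : ¬ Group.IsSolvable M) : IsSimpleGroup M := by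
  have := hM.nontrivial
  obtain ⟨T, hT⟩ := exists_isMinNormal M
  have hc := hM.eq_bot_or_top_of_characteristic
  have := CL.Perm.isSimpleGroup_of_isMinNormal_of_charSimple (fun K _ => hc K) hT
  obtain ⟨m, hm, ⟨e⟩⟩ := CL.Perm.exists_mulEquiv_pi_of_charSimple (fun K _ => hc K) hT
  obtain _ | _ | m := m
  · omega
  · exact (e.trans (MulEquiv.piUnique fun _ : Fin 1 => T)).isSimpleGroup
  · exfalso
    have hT6 := (h.sub M).sub T
    have hs' : ¬ Group.IsSolvable T := fun k => hs (Group.isSolvable_of_comm fun a b => e.injective (by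
      rw [map_mul, map_mul]
      exact funext fun i => IsSimpleGroup.comm_iff_isSolvable.2 k _ _))
    obtain ⟨x, hx⟩ := hT6.exists_five hs'
    obtain ⟨y, hy⟩ := hT6.exists_two hs'
    have ho : ∀ (i : Fin (m + 2)) (z : T), orderOf (Pi.mulSingle i z : Fin (m + 2) → T) = orderOf z := fun i z =>
      orderOf_injective (MonoidHom.mulSingle (fun _ : Fin (m + 2) => T) i)
        (Pi.mulSingle_injective (M := fun _ : Fin (m + 2) => T) i) z
    exact ((h.sub M).of_surj e.toMonoidHom e.surjective).not_comm ((ho 0 x).trans hx) ((ho 1 y).trans hy)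
      (Pi.mulSingle_commute (f := fun _ : Fin (m + 2) => T) (by simp) x y)

end Ord6

end Basic

section Six

/-- involutions of a dihedral Sylow 2-subgroup of `A₆` and a three-cycle -/
def z6 : alternatingGroup (Fin 6) := ⟨swap 0 1 * swap 2 3, mem_alternatingGroup.2 (by decide)⟩
/-- see `z6` -/
def a6 : alternatingGroup (Fin 6) := ⟨swap 0 2 * swap 1 3, mem_alternatingGroup.2 (by decide)⟩
/-- see `z6` -/
def b6 : alternatingGroup (Fin 6) := ⟨swap 0 1 * swap 4 5, mem_alternatingGroup.2 (by decide)⟩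
/-- see `z6` -/
def t6 : alternatingGroup (Fin 6) := ⟨swap 1 3 * swap 1 2, mem_alternatingGroup.2 (by decide)⟩

theorem six1 : ∀ w : Perm (Fin 6), w * w = 1 → w ≠ 1 → sign w = 1 → ∃ g : Perm (Fin 6), g * w = z6 * g ∧ sign g = 1 := by
  decide +kernel

theorem six2 : ∀ w : Perm (Fin 6), w * w = 1 → w * z6 = z6 * w → sign w = 1 →
    w = 1 ∨ w = z6 ∨ (w = a6 ∨ w = z6 * a6) ∨ w = b6 ∨ w = z6 * b6 := by
  decide +kernel

theorem six3 : ∀ x : Perm (Fin 6), x * x * x = 1 → (x * z6 = a6 * x ∨ x * z6 = z6 * a6 * x) →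
    ∃ i j k : Fin 6, i ≠ j ∧ i ≠ k ∧ j ≠ k ∧ x = swap i j * swap i k := by
  decide +kernel

theorem six4 : z6 * z6 = 1 ∧ z6 ≠ 1 ∧ a6 * a6 = 1 ∧ a6 * z6 = z6 * a6 ∧ a6 ≠ 1 ∧ a6 ≠ z6 ∧ t6 * t6 * t6 = 1 ∧
    t6 * z6 = a6 * t6 ∧ ∀ b, b = b6 ∨ b = z6 * b6 → b * b = 1 ∧ b * z6 = z6 * b ∧ b ≠ 1 ∧ b ≠ z6 ∧ a6 * b ≠ b * a6 ∧
      a6 * b * (a6 * b) = z6 ∧ z6 * a6 * (z6 * b) = a6 * b ∧ b * b6 = b6 * b ∧ b * (z6 * b6) = z6 * b6 * b := by
  refine ⟨by decide, by decide, by decide, by decide, by decide, by decide, by decide, by decide, ?_⟩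
  rintro b (rfl | rfl) <;> decide

theorem six_inv {w : alternatingGroup (Fin 6)} (h1 : w * w = 1) (h2 : w * z6 = z6 * w) :
    w = 1 ∨ w = z6 ∨ (w = a6 ∨ w = z6 * a6) ∨ w = b6 ∨ w = z6 * b6 := by
  simp only [Subtype.ext_iff]
  exact six2 w (congrArg Subtype.val h1) (congrArg Subtype.val h2) w.2

variable {G : Type*} [Group G] [Finite G]

theorem three_aux (h : Ord6 G) {ι : alternatingGroup (Fin 6) →* G} (hι : Function.Injective ι) {g : G}
    {β : alternatingGroup (Fin 6) ≃* alternatingGroup (Fin 6)} (hβ : ∀ x, g * ι x * g⁻¹ = ι (β x)) (hz : β z6 = z6) :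
    IsThreeCycle (β t6).1 := by
  obtain ⟨z2, z1, a2, az, a1, az', t3, tz, hb⟩ := six4
  have key : ∀ w, w * w = 1 → w * z6 = z6 * w → w ≠ 1 → w ≠ z6 →
      (β w = a6 ∨ β w = z6 * a6) ∨ β w = b6 ∨ β w = z6 * b6 := fun w w2 wz w1 wz' =>
    ((six_inv (by rw [← map_mul, w2, map_one]) (by rw [← hz, ← map_mul, wz, map_mul, hz])).resolve_left
      (by simpa using w1)).resolve_left fun e => wz' (β.injective (e.trans hz.symm))
  rcases key a6 a2 az a1 az' with k | k
  · have e : β t6 * z6 = β a6 * β t6 := by rw [← hz, ← map_mul, tz, map_mul]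
    obtain ⟨i, j, l, h1, h2, h3, h4⟩ := six3 (β t6) (congrArg Subtype.val (show β t6 * β t6 * β t6 = 1 by
      rw [← map_mul, ← map_mul, t3, map_one])) (k.imp (fun k => congrArg Subtype.val (k ▸ e))
        fun k => congrArg Subtype.val (k ▸ e))
    exact h4 ▸ isThreeCycle_swap_mul_swap_same h1 h2 h3
  · exfalso
    obtain ⟨b2, bz, b1, bz', ab, c2, c3, bb, bb'⟩ := hb _ k
    have hc : β (β (a6 * β a6)) = a6 * β a6 := by
      have n : β a6 * β (β a6) ≠ β (β a6) * β a6 := by
        rw [← map_mul, ← map_mul]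
        exact fun e => ab (β.injective e)
      rw [map_mul, map_mul]
      rcases key _ b2 bz b1 bz' with (k' | k') | k' | k' <;> rw [k'] at n ⊢
      · rw [map_mul, hz, c3]
      · exact absurd bb n
      · exact absurd bb' n
    have e1 : (ι a6 * g) ^ 2 = ι (a6 * β a6) * g ^ 2 := by rw [map_mul, ← hβ]; simp only [sq]; group
    have e2 : Commute (ι (a6 * β a6)) (g ^ 2) := by
      rw [Commute, SemiconjBy]
      conv_lhs => rw [← hc, ← hβ, ← hβ]
      simp only [sq]
      group
    have e3 : Commute (ι z6) g := by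
      rw [Commute, SemiconjBy]
      conv_lhs => rw [← hz, ← hβ]
      group
    have e4 := h.pow60 (ι a6 * g)
    rw [show 60 = 2 * (2 * 15) from rfl, pow_mul, e1, pow_mul, e2.mul_pow, sq, ← map_mul, c2, ← pow_mul,
      (e3.pow_right _).mul_pow, ← pow_mul, h.pow60, mul_one, ← map_pow, show 15 = 2 * 7 + 1 from rfl, pow_succ,
      pow_mul, sq, z2, one_pow, one_mul] at e4
    exact z1 (hι (e4.trans (map_one ι).symm))

theorem three_six (h : Ord6 G) {ι : alternatingGroup (Fin 6) →* G} (hι : Function.Injective ι) {g : G}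
    {β : alternatingGroup (Fin 6) ≃* alternatingGroup (Fin 6)} (hβ : ∀ x, g * ι x * g⁻¹ = ι (β x))
    (c : alternatingGroup (Fin 6)) (hc : IsThreeCycle c.1) : IsThreeCycle (β c).1 := by
  obtain ⟨k, hk, hs⟩ := six1 (β z6) (congrArg Subtype.val (show β z6 * β z6 = 1 by
    rw [← map_mul, six4.1, map_one])) (fun e => six4.2.1 (β.injective ((Subtype.ext e).trans (map_one β).symm)))
    (β z6).2
  let k' : alternatingGroup (Fin 6) := ⟨k, hs⟩
  have h1 := three_aux h hι (g := ι k' * g) (β := β.trans (MulAut.conj k')) (fun x => by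
    simp only [MulEquiv.trans_apply, MulAut.conj_apply, map_mul, map_inv, ← hβ]; group)
    (mul_inv_eq_iff_eq_mul.2 (Subtype.ext hk))
  have h2 : IsThreeCycle (β t6).1 := (cycleType_conj (τ := k) (σ := (β t6).1)).symm.trans h1
  have h3 : IsThreeCycle t6.1 := isThreeCycle_swap_mul_swap_same (by decide) (by decide) (by decide)
  obtain ⟨l, rfl⟩ := isConj_iff.1 (alternatingGroup.isThreeCycle_isConj (by simp) h3 hc)
  rw [map_mul, map_mul, map_inv]
  exact cycleType_conj.trans h2

end Six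

/-- `A₅` or `A₆` -/
def Small (K : Type*) [Group K] : Prop := ∃ n, (n = 5 ∨ n = 6) ∧ Nonempty (K ≃* alternatingGroup (Fin n))

/-- the induction hypothesis -/
def IH (c : ℕ) : Prop := ∀ (K : Type u) [Group K] [Finite K] [IsSimpleGroup K], ¬ Group.IsSolvable K → Ord6 K →
  Nat.card K ≤ c → Small K

theorem IH.mono {c d : ℕ} (h : IH.{u} c) (hd : d ≤ c) : IH.{u} d := fun K _ _ _ h1 h2 h3 => h K h1 h2 (h3.trans hd)

/-- `G` modulo a solvable normal subgroup lies between `A_n` and `S_n`, `n = 5, 6`. -/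
def Top (G : Type*) [Group G] : Prop := ∃ n, (n = 5 ∨ n = 6) ∧ ∃ π : G →* Perm (Fin n),
  alternatingGroup (Fin n) ≤ π.range ∧ Group.IsSolvable π.ker

theorem top_of_normal {G : Type*} [Group G] [Finite G] (h : Ord6 G) {K : Subgroup G} [K.Normal] (hs : ¬ Group.IsSolvable K)
    (hK : Small K) : Top G := by
  obtain ⟨n, hn, ⟨e⟩⟩ := hK
  have n4 : 4 ≤ Nat.card (Fin n) := by rw [Nat.card_eq_fintype_card, Fintype.card_fin]; omega
  let φ : G →* MulAut (alternatingGroup (Fin n)) := (MulAut.congr e).toMonoidHom.comp (MulAut.conjNormal (H := K))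
  have hφe : ∀ (g : G) x, g * (e.symm x : K) * g⁻¹ = (e.symm (φ g x) : K) := fun g x => by
    simp [φ, MulAut.conjNormal_apply]
  have hφ : Function.Injective φ := (injective_iff_map_eq_one _).2 fun z hz => by
    obtain ⟨x, hx⟩ := (h.sub K).exists_five hs
    obtain ⟨y, hy⟩ := (h.sub K).exists_two hs
    have hc : ∀ k : K, Commute (k : G) z := fun k => by
      have := hφe z (e k)
      rw [hz, MulAut.one_apply, e.symm_apply_apply] at this
      exact (mul_inv_eq_iff_eq_mul.1 this).symm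
    by_contra h1
    exact h.not_comm (orderOf_eq_prime (hp := ⟨Nat.prime_five⟩) (h.five_cent ((orderOf_coe x).trans hx) (hc x)) h1)
      ((orderOf_coe y).trans hy) (hc y).symm
  have hψ : Function.Injective (MulAut.conjNormal : Perm (Fin n) →* MulAut (alternatingGroup (Fin n))) :=
    (injective_iff_map_eq_one _).2 fun g hg => CL.Known.eq_one_of_commute_alt n4 fun c hc => by
      have := MulAut.conjNormal_apply (H := alternatingGroup (Fin n)) g ⟨c, hc.mem_alternatingGroup⟩
      rw [hg] at this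
      exact (eq_mul_inv_iff_mul_eq.1 this).symm
  have hr : ∀ g, φ g ∈ (MulAut.conjNormal : Perm (Fin n) →* MulAut (alternatingGroup (Fin n))).range := fun g => by
    obtain ⟨σ, hσ⟩ := CL.Known.exists_conj_of_three_cycles n4 (φ g) fun c hc => by
      rcases hn with rfl | rfl
      · exact CL.Known.isThreeCycle_map_of_mulEquiv (by simp) _ hc
      · exact three_six h (ι := K.subtype.comp e.symm.toMonoidHom) (K.subtype_injective.comp e.symm.injective)
          (hφe g) c hc
    exact ⟨σ, MulEquiv.ext fun x => Subtype.ext (by rw [MulAut.conjNormal_apply, hσ])⟩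
  let f := (MonoidHom.ofInjective hψ).symm.toMonoidHom.comp (φ.codRestrict _ hr)
  have hf : Function.Injective f := (MonoidHom.ofInjective hψ).symm.injective.comp fun a b h =>
    hφ (congrArg Subtype.val h)
  refine ⟨n, hn, f, fun a ha => ⟨(e.symm ⟨a, ha⟩ : K), hψ ?_⟩, by rw [f.ker_eq_bot hf]; infer_instance⟩
  have h1 : ∀ g, MulAut.conjNormal (f g) = φ g := fun g =>
    congrArg Subtype.val ((MonoidHom.ofInjective hψ).apply_symm_apply (φ.codRestrict _ hr g))
  rw [h1]
  ext x : 1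
  refine e.symm.injective (Subtype.ext ?_)
  rw [← hφe, ← Subgroup.coe_inv, ← Subgroup.coe_mul, ← Subgroup.coe_mul, ← map_inv, ← map_mul, ← map_mul]
  rfl

theorem top_of (G : Type u) [Group G] [Finite G] : Ord6 G → ¬ Group.IsSolvable G → IH.{u} (Nat.card G) → Top G := by
  refine induction_on_card (P := fun G _ _ => Ord6 G → ¬ Group.IsSolvable G → IH.{u} (Nat.card G) → Top G)
    (fun G _ _ ih h hs hI => ?_) G
  have : Nontrivial G := not_subsingleton_iff_nontrivial.1 fun _ => hs inferInstance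
  obtain ⟨M, hM⟩ := exists_isMinNormal G
  have := hM.normal
  by_cases hMs : Group.IsSolvable M
  · have hlt := card_quotient_lt hM.ne_bot
    obtain ⟨n, hn, π, h1, h2⟩ := ih (G ⧸ M) hlt (h.quot M)
      (fun k => hs ((Group.isSolvable_iff_subgroup_quotient M).2 ⟨hMs, k⟩)) (hI.mono hlt.le)
    refine ⟨n, hn, π.comp (QuotientGroup.mk' M), ?_, ?_⟩
    · rwa [MonoidHom.range_comp, QuotientGroup.range_mk', ← MonoidHom.range_eq_map]
    · exact Group.isSolvable_of_ker_le_range (G' := M) (G'' := π.ker)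
        (inclusion fun m hm => by simp [(QuotientGroup.eq_one_iff m).2 hm])
        (((QuotientGroup.mk' M).comp (Subgroup.subtype _)).codRestrict _ fun g => g.2)
        fun g hg => ⟨⟨g, (QuotientGroup.eq_one_iff _).1 (congrArg Subtype.val hg)⟩, rfl⟩
  · have := h.simple_of_min hM hMs
    exact top_of_normal h hMs (hI M hMs (h.sub M) (card_le_card_group M))

end CL.OrdSix
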