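/-
Groups all of whose elements have order at most 6 (S4007), part B: normal 5-subgroups and solvable groups.
-/
import Cfsg.Agent.Inv.Ord6A
import Cfsg.Agent.Grp.ThompsonFpf
import Cfsg.Agent.Grp.FrobCompl
import Cfsg.Agent.Odd.RelHall
import Cfsg.Agent.Perm.SpecFrobCover
import Cfsg.Agent.Perm.SpecBigPrimes
import Cfsg.Agent.Perm.ZassStruct
import Cfsg.Agent.Cls.SL2Dihedral
import Cfsg.Agent.Transfer.SL23
import Cfsg.Agent.S0106

set_option autoImplicit false
open Cfsg CL.Grp Subgroup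
open scoped commutatorElement

namespace CL.OrdSix

universe u

variable {G : Type*} [Group G] [Finite G]

/-- If `u` and all its conjugates invert `N`, then `⁅u, g⁆` centralises `N`. -/
theorem comm_cent {N : Subgroup G} [hN : N.Normal] {u : G} (hu : ∀ k ∈ N, u * k * u⁻¹ = k⁻¹) (g : G) {k : G}
    (hk : k ∈ N) : Commute ⁅u, g⁆ k := by
  have h1 := hu _ (hN.conj_mem' _ hk g)
  have h2 := hu _ hk
  have h3 : u⁻¹ * (g⁻¹ * k * g) * u = g⁻¹ * k⁻¹ * g := by
    calc _ = u⁻¹ * (g⁻¹ * k * g)⁻¹⁻¹ * u := by rw [inv_inv]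
      _ = _ := by rw [← h1]; group
  rw [Commute, SemiconjBy, ← mul_inv_eq_iff_eq_mul, commutatorElement_def]
  calc _ = u * (g * (u⁻¹ * (g⁻¹ * k * g) * u) * g⁻¹) * u⁻¹ := by group
    _ = (u * k * u⁻¹)⁻¹ := by rw [h3]; group
    _ = k := by rw [h2, inv_inv]

theorem inv_of_fpf {N : Subgroup G} [hN : N.Normal] {u : G} (h2 : ∀ k ∈ N, Commute (u * u) k)
    (hf : ∀ k ∈ N, u * k = k * u → k = 1) {k : G} (hk : k ∈ N) : u * k * u⁻¹ = k⁻¹ := by
  obtain ⟨x, hx, rfl⟩ := CL.Perm.exists_comm_of_fpf (fun x hx => hN.conj_mem x hx u) hf hk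
  calc _ = u * x * u⁻¹ * (u * u * x⁻¹) * (u * u)⁻¹ := by group
    _ = _ := by rw [(h2 _ (inv_mem hx)).eq]; group

theorem lift_sub {S : Type*} [Group S] [Finite S] (π : G →* S) {r : ℕ} (hr : r.Prime) {A : Subgroup S} (hA : IsPGroup r A)
    (hle : A ≤ π.range) : ∃ R : Subgroup G, IsPGroup r R ∧ R.map π = A ∧
      ∀ g, π g ∈ normalizer (A : Set S) → ∃ g' ∈ normalizer (R : Set G), π g' = π g := by
  have := Fact.mk hr
  obtain ⟨R, hR⟩ := exists_isSylowIn r (A.comap π)
  have h3 : R.map π = A := by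
    have h2 := CL.Odd.sylow_map hR π
    rw [map_comap_eq_self hle] at h2
    exact (h2.eq_of_le hA h2.le le_rfl).symm
  refine ⟨R, hR.isPGroup, h3, fun g hg => ?_⟩
  obtain ⟨k, hk, n, hn, e⟩ := CL.Odd.sylow_frattini hR (g := g) (le_normalizer_comap π hg)
  obtain ⟨b, hb, e'⟩ : π k ∈ R.map π := h3 ▸ hk
  exact ⟨b * n, mul_mem (le_normalizer hb) hn, by rw [e, map_mul, map_mul, e']⟩

/-- a Frobenius section `A⟨s⟩` over a normal `p`-subgroup, all of whose lifts of `s` have order dividing `m` -/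
theorem kill {S : Type*} [Group S] [Finite S] (π : G →* S) {p r m : ℕ} (hp : p.Prime) (hr : r.Prime) (hpr : r ≠ p)
    {P : Subgroup G} [P.Normal] (hP : IsPGroup p P) (hPK : P ≤ π.ker) (hK : ¬ r ∣ Nat.card π.ker) {A : Subgroup S}
    (hA : IsPGroup r A) (hle : A ≤ π.range) {g : G} (hg : π g ∈ normalizer (A : Set S)) (hm : 0 < m)
    (hf : ∀ i, 0 < i → i < m → ∀ x ∈ A, x * π g ^ i = π g ^ i * x → x = 1) (h0 : ∀ y, π y = π g → y ^ m = 1) :
    A ≤ (centralizer (P : Set G)).map π := by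
  have := Fact.mk hr
  have := Fact.mk hp
  obtain ⟨R, hR, rfl, hn⟩ := lift_sub π hr hA hle
  obtain ⟨g', hg', e⟩ := hn g hg
  refine map_mono (CL.Perm.le_centralizer_of_coset_pow_eq_one hP le_normalizer_of_normal
    (IsPGroup.coprime_card_of_ne r p hpr _ _ hR hP) (le_normalizer_of_normal (mem_top g')) hg' hm
    (fun i h1 h2 x hx hc => ?_) fun y hy => h0 _ (by rw [map_mul, e, (MonoidHom.mem_ker).1 (hPK hy), one_mul]))
  have h3 : x ∈ π.ker := hf i h1 h2 _ (mem_map_of_mem π hx) (by rw [← e, ← map_pow, ← map_mul, hc, map_mul])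
  obtain ⟨k, hk⟩ := hR ⟨x, hx⟩
  exact orderOf_eq_one_iff.1 (Nat.eq_one_of_dvd_coprimes ((hr.coprime_iff_not_dvd.2 hK).pow_left k)
    (orderOf_dvd_of_pow_eq_one (congrArg Subtype.val hk)) (π.ker.orderOf_dvd_natCard h3))

namespace Ord6

variable (h : Ord6 G)
include h

theorem ord_five {x : G} (hx : x ^ 5 = 1) (h1 : x ≠ 1) : orderOf x = 5 :=
  orderOf_eq_prime (hp := ⟨Nat.prime_five⟩) hx h1

theorem five_core (h0 : pCore 5 G ≠ ⊥) {z : G} (hz : orderOf z = 2) : IsElementaryAbelian 5 (pCore 5 G) ∧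
    ¬ 5 ∣ (pCore 5 G).index := by
  have hP := pCore_isPGroup 5 G
  have z2 : z * z = 1 := by rw [← sq, ← hz, pow_orderOf_eq_one]
  have hf : ∀ k ∈ pCore 5 G, z * k = k * z → k = 1 := fun k hk hc => by_contra fun k1 =>
    h.not_comm (h.ord_five (h.five_grp hP hk) k1) hz (Commute.symm hc)
  obtain ⟨h1, h2⟩ := conj_eq_inv_of_fpf_involution (le_normalizer_of_normal (mem_top z)) z2
    (eq_bot_iff.2 fun k hk => hf k hk.1 (hk.2 z rfl))
  refine ⟨⟨h2, fun a ha => h.five_grp hP ha⟩, fun h5 => ?_⟩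
  obtain ⟨x, hx, x1⟩ := (pCore 5 G).bot_or_exists_ne_one.resolve_left h0
  have hC : centralizer (pCore 5 G : Set G) ≤ pCore 5 G := le_pCore fun g => ⟨1, Subtype.ext (by
    simpa using h.five_cent (h.ord_five (h.five_grp hP hx) x1) (g.2 x hx))⟩
  have := Fact.mk Nat.prime_five
  obtain ⟨y, hy⟩ := exists_prime_orderOf_dvd_card' (G := G ⧸ pCore 5 G) 5 h5
  obtain ⟨y, rfl⟩ := QuotientGroup.mk_surjective y
  refine (h.quot _).not_comm hy (y := z) (orderOf_eq_prime (by rw [← QuotientGroup.mk_pow, sq, z2]; rfl) fun e => ?_)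
    (Commute.symm (commutatorElement_eq_one_iff_commute.1 ((QuotientGroup.eq_one_iff ⁅z, y⁆).2
      (hC fun k hk => (comm_cent h1 y hk).symm))))
  rw [hf z ((QuotientGroup.eq_one_iff z).1 e) rfl] at hz
  simp at hz

theorem solv_of_core (h0 : pCore 5 G ≠ ⊥) : Group.IsSolvable G := by
  by_contra hs
  obtain ⟨z, hz⟩ := h.exists_two hs
  have := Fact.mk Nat.prime_five
  have := (pCore_isPGroup 5 G).isNilpotent
  exact hs ((Group.isSolvable_iff_subgroup_quotient (pCore 5 G)).2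
    ⟨inferInstance, (h.quot _).solv_of_five (h.five_core h0 hz).2⟩)

theorem not_five (hs : ¬ Group.IsSolvable G) {K : Subgroup G} [K.Normal] (hK : Group.IsSolvable K) :
    ¬ 5 ∣ Nat.card K := fun h5 => by
  have := Fact.mk Nat.prime_five
  obtain ⟨P, hP⟩ := exists_isSylowIn 5 K
  have h1 : P ≠ ⊥ := by
    rintro rfl
    exact hP.not_dvd (by rwa [relIndex_bot_left])
  have h2 : Group.IsSolvable (normalizer (P : Set G)) := (h.sub _).solv_of_core fun e => h1 (by
    have := le_pCore (N := P.subgroupOf (normalizer (P : Set G))) (hP.isPGroup.comap_of_injective _ (subtype_injective _))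
    rw [e, le_bot_iff, subgroupOf_eq_bot, disjoint_iff, inf_eq_left.2 le_normalizer] at this
    exact this)
  refine hs ((Group.isSolvable_iff_subgroup_quotient K).2 ⟨hK, Group.isSolvable_of_surjective
    (f := (QuotientGroup.mk' K).comp (normalizer (P : Set G)).subtype) fun g => ?_⟩)
  obtain ⟨g, rfl⟩ := QuotientGroup.mk_surjective g
  obtain ⟨n, hn, hg⟩ := hP.frattini (H := ⊤) le_normalizer_of_normal (mem_top g)
  exact ⟨⟨_, hg⟩, by simp [(QuotientGroup.eq_one_iff n).2 hn]⟩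

theorem eq_one_of_mem {x k : G} (hx : orderOf x = 5) {K : Subgroup G} (h5 : ¬ 5 ∣ Nat.card K) (hk : k ∈ K)
    (hc : Commute x k) : k = 1 :=
  h.eq_one hx hc (pow_orderOf_eq_one k) (((Nat.Prime.coprime_iff_not_dvd Nat.prime_five).2 h5).symm.coprime_dvd_left
    (K.orderOf_dvd_natCard hk))

theorem nilp {x : G} (hx : orderOf x = 5) {K : Subgroup G} [K.Normal] (h5 : ¬ 5 ∣ Nat.card K) : Group.IsNilpotent K :=
  isNilpotent_of_fpf_prime (hx ▸ Nat.prime_five) (le_normalizer_of_normal (mem_top x))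
    (eq_bot_iff.2 fun k hk => h.eq_one_of_mem hx h5 hk.1 (hk.2 x rfl))

theorem pow_twelve {g : G} (h5 : ¬ 5 ∣ orderOf g) : g ^ 12 = 1 := by
  have h1 := h g
  have h2 := orderOf_pos g
  rw [← orderOf_dvd_iff_pow_eq_one]
  interval_cases orderOf g <;> simp_all (config := {decide := true})

/-- modulo its 2-part, a nilpotent normal 5'-subgroup is a 3-group -/
theorem cube_mem {K : Subgroup G} (hK : Group.IsNilpotent K) (h5 : ¬ 5 ∣ Nat.card K) {k : G} (hk : k ∈ K) :
    k ^ 3 ∈ pCoreOf 2 K :=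
  le_pCoreOf_of_isNilpotent hK (IsPGroup.of_card_dvd_pow (n := 2) (by
    rw [Nat.card_zpowers, orderOf_dvd_iff_pow_eq_one, ← pow_mul]
    exact h.pow_twelve fun e => h5 (e.trans (K.orderOf_dvd_natCard hk)))) (zpowers_le.2 (pow_mem hk 3)) (mem_zpowers _)

theorem ord_three {g : G} (h3 : 3 ∣ orderOf g) : orderOf (g ^ 4) = 3 := by
  have h1 := h g
  have h2 := orderOf_pos g
  rw [orderOf_pow' _ (by decide)]
  interval_cases orderOf g <;> simp_all (config := {decide := true})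

theorem dic_of_npc (hq : PQCyclic G) (h5 : ¬ 5 ∣ Nat.card G) {u y : G} (hu : orderOf u = 4) (hy : orderOf y = 3)
    (hn : HasNormalPComplement 2 G) : Nonempty (G ≃* QuaternionGroup 3) := by
  obtain ⟨P, K, hK, hc⟩ := hn
  have := Fact.mk Nat.prime_three
  have p12 : ∀ g : G, g ^ 12 = 1 := fun g => h.pow_twelve fun e => h5 (e.trans (orderOf_dvd_natCard g))
  have hodd : (Nat.card K).Coprime 4 := by
    rw [← hc.index_eq_card]
    exact ((Nat.Prime.coprime_iff_not_dvd Nat.prime_two).2 P.not_dvd_index).symm.pow_right 2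
  have hK3 : IsPGroup 3 K := fun k => ⟨1, orderOf_dvd_iff_pow_eq_one.1 ((hodd.coprime_dvd_left
    (orderOf_dvd_natCard k)).dvd_of_dvd_mul_left (orderOf_dvd_of_pow_eq_one (Subtype.ext (p12 k))))⟩
  have := hq.isCyclic_of_ne_two hK3 (by decide)
  have hm : ∀ g : G, g ^ 3 = 1 → g ∈ K := fun g hg => by
    obtain ⟨n, hn⟩ := IsPGroup.iff_card.1 P.isPGroup'
    obtain ⟨k, hk⟩ := exists_pow_eq_self_of_coprime (x := g) (n := K.index) (by
      rw [hc.symm.index_eq_card, hn]
      exact ((by decide : Nat.Coprime 2 3).pow_left n).coprime_dvd_right (orderOf_dvd_of_pow_eq_one hg))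
    exact hk ▸ pow_mem (K.pow_index_mem g) k
  have y3 : y ^ 3 = 1 := hy ▸ pow_orderOf_eq_one y
  have hz : ∀ g : G, g ^ 3 = 1 → g ∈ zpowers y := fun g hg => by
    obtain ⟨k, hk⟩ := mem_zpowers_of_isCyclic_of_pow_orderOf (z := (⟨y, hm y y3⟩ : K)) (x := ⟨g, hm g hg⟩)
      (by rw [orderOf_mk, hy]; exact Subtype.ext hg)
    exact ⟨k, congrArg Subtype.val hk⟩
  have hcj : ∀ g : G, Commute g y ∨ g * y * g⁻¹ = y⁻¹ := fun g => by
    classical
    have h1 := hz (g * y * g⁻¹) (by rw [conj_pow, y3, mul_one, mul_inv_cancel])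
    rw [mem_zpowers_iff_mem_range_orderOf, hy, Finset.mem_image] at h1
    obtain ⟨i, hi, e⟩ := h1
    rw [Finset.mem_range] at hi
    interval_cases i
    · rw [pow_zero, eq_comm, conj_eq_one_iff] at e
      simp [e] at hy
    · exact .inl (mul_inv_eq_iff_eq_mul.1 (e.symm.trans (pow_one y)))
    · exact .inr (e.symm.trans (eq_inv_of_mul_eq_one_left (by rw [← pow_succ, y3])))
  have n4 : ∀ g : G, orderOf g = 4 → ¬ Commute g y := fun g hg hc => by
    have := orderOf_dvd_of_pow_eq_one (h.four_cent hg hc)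
    rw [hy] at this
    omega
  have uy := (hcj u).resolve_left (n4 u hu)
  have oz : orderOf (u ^ 2) = 2 := by rw [orderOf_pow' _ two_ne_zero, hu]; rfl
  have zc : ∀ g, Commute g (u ^ 2) := fun g => mem_center_iff.1 (hq.mem_center_of_orderOf_eq_two oz) g
  have z2 : (u ^ 2) ^ 2 = 1 := orderOf_dvd_iff_pow_eq_one.1 oz.dvd
  have a3 : (y * u ^ 2) ^ 3 = u ^ 2 := by rw [(zc y).mul_pow, y3, one_mul, pow_succ, z2, one_mul]
  have a4 : (y * u ^ 2) ^ 4 = y := by
    rw [pow_succ, a3, ← (zc _).eq, mul_assoc, ← sq (u ^ 2), z2, mul_one]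
  have oa : orderOf (y * u ^ 2) = 2 * 3 := by
    rw [(zc y).orderOf_mul_eq_mul_orderOf_of_coprime (by rw [hy, oz]; decide), hy, oz]
  have key : ∀ g : G, Commute g y → g ∈ zpowers (y * u ^ 2) := fun g hg => by
    have h1 : g ^ 4 ∈ zpowers (y * u ^ 2) :=
      zpowers_le.2 (mem_zpowers_iff.2 ⟨4, (zpow_natCast _ 4).trans a4⟩) (hz _ (by rw [← pow_mul, p12]))
    have h2 : g ^ 3 ∈ zpowers (y * u ^ 2) := by
      have h3 : orderOf (g ^ 3) ∣ 4 := orderOf_dvd_of_pow_eq_one (by rw [← pow_mul, p12])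
      rcases (Nat.dvd_prime_pow Nat.prime_two (m := 2)).1 h3 with ⟨_ | _ | _ | k, hk, e⟩
      · rw [orderOf_eq_one_iff.1 e]
        exact one_mem _
      · rw [hq.eq_of_orderOf_eq_two e oz]
        exact mem_zpowers_iff.2 ⟨3, (zpow_natCast _ 3).trans a3⟩
      · exact absurd (hg.pow_left 3) (n4 _ e)
      · omega
    rwa [pow_succ g 3, mul_mem_cancel_left h2] at h1
  refine CL.SL2.nonempty_quaternion _ u oa (by rw [a3, sq]) ?_ (fun e => ?_) fun g => (hcj g).imp (key g) fun e => key _ ?_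
  · rw [mul_inv_rev, ← (zc y).inv_inv.eq, inv_eq_of_mul_eq_one_right (show u ^ 2 * u ^ 2 = 1 by rw [← sq, z2]), ← uy]
    group
  · have := orderOf_dvd_of_mem_zpowers e
    rw [hu, oa] at this
    omega
  · rw [Commute, SemiconjBy, ← mul_inv_eq_iff_eq_mul]
    calc _ = u⁻¹ * (g * y * g⁻¹) * u := by group
      _ = y := by rw [e, ← uy]; group

theorem compl (hq : PQCyclic G) (h5 : ¬ 5 ∣ Nat.card G) {u y : G} (hu : orderOf u = 4) (hy : orderOf y = 3) :
    Nonempty (G ≃* QuaternionGroup 3) ∨ Nonempty (G ≃* Matrix.SpecialLinearGroup (Fin 2) (ZMod 3)) := by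
  by_cases hn : HasNormalPComplement 2 G
  · exact .inl (h.dic_of_npc hq h5 hu hy hn)
  obtain ⟨T⟩ : Nonempty (Sylow 2 G) := inferInstance
  have := Fact.mk Nat.prime_three
  have hc : ¬ IsCyclic T := fun hc => hn ⟨T, _, inferInstance, hc.isComplement' ((Nat.minFac_eq_two_iff _).2
    ((show 2 ∣ 4 by decide).trans (hu ▸ orderOf_dvd_natCard u)))⟩
  obtain ⟨-, n, ⟨e⟩⟩ := (hq.isCyclic_or_quaternion T.isPGroup').resolve_left hc
  have h1 := (h.sub T).of_inj e.symm.toMonoidHom e.symm.injective (.a 1)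
  rw [QuaternionGroup.orderOf_a_one] at h1
  obtain _ | _ | n := n
  · exact absurd (e.isCyclic.2 QuaternionGroup.quaternionGroup_one_isCyclic) hc
  · obtain ⟨H, K, hK, ⟨f⟩⟩ := (Cfsg.Agent.S0106.result T _ le_rfl ⟨e⟩).resolve_left hn
    obtain ⟨R⟩ : Nonempty (Sylow 3 G) := inferInstance
    have hR : Nat.card R ∣ 3 := by
      have := hq.isCyclic_of_ne_two R.isPGroup' (by decide)
      rw [← IsCyclic.exponent_eq_card]
      exact Monoid.exponent_dvd_of_forall_pow_eq_one fun g => Subtype.ext (h.three_grp R.isPGroup' g.2)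
    have hT : Nat.card T = 8 := by rw [Nat.card_congr e.toEquiv, Nat.card_eq_fintype_card, QuaternionGroup.card]; rfl
    have hi : T.1.index ∣ 3 := by
      have h2 := Nat.eq_prime_pow_of_unique_prime_dvd (p := 3) T.1.index_ne_zero_of_finite fun {q} hq hd => by
        rcases h.primes hq (hd.trans T.1.index_dvd_card) with rfl | rfl | rfl
        exacts [absurd hd T.not_dvd_index, rfl, absurd (hd.trans T.1.index_dvd_card) h5]
      rw [h2]
      exact (R.pow_dvd_card_of_pow_dvd_card (h2 ▸ T.1.index_dvd_card)).trans hR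
    have hG : Nat.card G ≤ 24 := by
      rw [← T.1.card_mul_index, hT]
      have := Nat.le_of_dvd (by decide) hi
      omega
    have hs : Function.Surjective (f.toMonoidHom.comp (QuotientGroup.mk' _)) :=
      f.surjective.comp (QuotientGroup.mk'_surjective _)
    have h2 := Nat.card_le_card_of_surjective _ hs
    have h3 := card_le_card_group H
    rw [CL.Transfer.card_SL23] at h2
    exact .inr ⟨(MulEquiv.ofBijective H.subtype (H.subtype_injective.bijective_of_nat_card_le (by omega))).symm.trans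
      (MulEquiv.ofBijective _ (hs.bijective_of_nat_card_le (by rw [CL.Transfer.card_SL23]; omega)))⟩
  · have := Nat.one_le_two_pow (n := n)
    omega

theorem core_case (h0 : pCore 5 G ≠ ⊥) {u y : G} (hu : orderOf u = 4) (hy : orderOf y = 3) :
    IsElementaryAbelian 5 (pCore 5 G) ∧ (Nonempty (G ⧸ pCore 5 G ≃* QuaternionGroup 3) ∨
      Nonempty (G ⧸ pCore 5 G ≃* Matrix.SpecialLinearGroup (Fin 2) (ZMod 3))) := by
  have := Fact.mk Nat.prime_five
  obtain ⟨h1, h2⟩ := h.five_core h0 (z := u ^ 2) (by rw [orderOf_pow' _ two_ne_zero, hu]; rfl)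
  have hP := pCore_isPGroup 5 G
  obtain ⟨n, hn⟩ := IsPGroup.iff_card.1 hP
  obtain ⟨L, hL⟩ := exists_right_complement'_of_coprime (N := pCore 5 G)
    (hn ▸ ((Nat.Prime.coprime_iff_not_dvd Nat.prime_five).2 h2).pow_left n)
  have hq : PQCyclic L := pqCyclic_of_fpf h0 le_normalizer_of_normal fun a ha a1 => eq_bot_iff.2 fun k hk =>
    by_contra fun k1 => a1 (h.eq_one_of_mem (h.ord_five (h.five_grp hP hk.1) k1) (hL.symm.index_eq_card ▸ h2) ha
      (hk.2 a rfl).symm)
  have ho : ∀ g : G, (orderOf g).Coprime 5 → orderOf (g : G ⧸ pCore 5 G) = orderOf g := fun g hg => by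
    refine Nat.dvd_antisymm (orderOf_map_dvd (QuotientGroup.mk' _) g) (hg.dvd_of_dvd_mul_right ?_)
    rw [orderOf_dvd_iff_pow_eq_one, pow_mul]
    exact h1.2 _ ((QuotientGroup.eq_one_iff _).1 (by rw [QuotientGroup.mk_pow, pow_orderOf_eq_one]))
  exact ⟨h1, (h.quot _).compl (hq.of_injective hL.symm.QuotientMulEquiv.toMonoidHom hL.symm.QuotientMulEquiv.injective)
    h2 ((ho u (by rw [hu]; decide)).trans hu) ((ho y (by rw [hy]; decide)).trans hy)⟩

theorem solv_case [Group.IsSolvable G] {x u y : G} (hx : orderOf x = 5) (hu : orderOf u = 4) (hy : orderOf y = 3) :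
    pCore 5 G ≠ ⊥ := fun h0 => by
  have := Fact.mk Nat.prime_five
  have := Fact.mk Nat.prime_three
  have h5 := not_dvd_card_pPrimeCore 5 G
  have hK : pPrimeCore 5 G ≠ ⊥ := fun e => by
    have h1 := centralizer_pCore_le_of_isSolvable e (show x ∈ _ from fun g hg => by
      rw [h0] at hg; rw [mem_bot.1 hg, one_mul, mul_one])
    rw [h0] at h1
    simp [mem_bot.1 h1] at hx
  have hC := centralizer_pCore_le_of_isSolvable (pPrimeCore_quotient_pPrimeCore 5 G)
  set K := pPrimeCore 5 G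
  have hN := h.nilp hx h5
  have hA := pCore_isPGroup 5 (G ⧸ K)
  obtain ⟨a, ha, a1⟩ := (pCore 5 (G ⧸ K)).bot_or_exists_ne_one.resolve_left fun e => h5 (by
    have h1 := hC (show (x : G ⧸ K) ∈ _ from fun g hg => by rw [e] at hg; rw [mem_bot.1 hg, one_mul, mul_one])
    rw [e] at h1
    exact hx ▸ K.orderOf_dvd_natCard ((QuotientGroup.eq_one_iff x).1 (mem_bot.1 h1)))
  have hr : pCore 5 (G ⧸ K) ≤ (QuotientGroup.mk' K).range := by rw [QuotientGroup.range_mk']; exact le_top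
  have o5 : ∀ c : G, (c : G ⧸ K) ∈ pCore 5 (G ⧸ K) → (c : G ⧸ K) ≠ 1 → orderOf c = 5 := fun c hc c1 =>
    h.eq_five ((h.quot K).ord_five ((h.quot K).five_grp hA hc) c1 ▸ orderOf_map_dvd (QuotientGroup.mk' K) c)
  have yK : y ∈ K := by_contra fun yK => by
    obtain ⟨R, hR, e, hn⟩ := lift_sub (QuotientGroup.mk' K) Nat.prime_five hA hr
    obtain ⟨g, hg, eg⟩ := hn y (le_normalizer_of_normal (mem_top _))
    have hq : PQCyclic R := pqCyclic_of_fpf hK le_normalizer_of_normal fun a ha a1 => eq_bot_iff.2 fun k hk =>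
      h.eq_one_of_mem (h.ord_five (h.five_grp hR ha) a1) h5 hk.1 (hk.2 a rfl)
    have hc : Nat.card R = 5 := by
      have : IsCyclic R := isCyclic_of_surjective topEquiv.toMonoidHom topEquiv.surjective
        (hH := hq.isCyclic_of_ne_two (hR.to_subgroup ⊤) (by decide))
      refine ((Nat.dvd_prime Nat.prime_five).1 ?_).resolve_left fun e1 => a1 ?_
      · rw [← IsCyclic.exponent_eq_card]
        exact Monoid.exponent_dvd_of_forall_pow_eq_one fun g => Subtype.ext (h.five_grp hR g.2)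
      · rwa [← e, card_eq_one.1 e1, Subgroup.map_bot] at ha
    have o3 : orderOf (QuotientGroup.mk' K y) = 3 := orderOf_eq_prime (by rw [← map_pow, ← hy, pow_orderOf_eq_one, map_one])
      fun e => yK ((QuotientGroup.eq_one_iff y).1 e)
    rcases CL.Perm.mul_mem_spec_or_dvd_of_normalizer Nat.prime_five Nat.prime_three (by decide) hc
      (h.ord_three (o3 ▸ eg ▸ orderOf_map_dvd _ g)) (pow_mem hg 4) with ⟨w, hw⟩ | k
    · have := hw ▸ h w
      omega
    · omega
  have hP := pCoreOf_isPGroup 3 K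
  have yP : y ∈ pCoreOf 3 K := le_pCoreOf_of_isNilpotent hN (IsPGroup.of_card (n := 1) (by rw [Nat.card_zpowers, hy]; rfl))
    (zpowers_le.2 yK) (mem_zpowers y)
  have key : ∀ c : G, (c : G ⧸ K) ∈ pCore 5 (G ⧸ K) → Commute c y → (c : G ⧸ K) = 1 := fun c hc cy =>
    by_contra fun c1 => by simp [h.eq_one_of_mem (o5 c hc c1) h5 yK cy] at hy
  have u4 : u ^ 4 = 1 := hu ▸ pow_orderOf_eq_one u
  have fp : ∀ i : ℕ, (u : G ⧸ K) ^ i ≠ 1 → ∀ x ∈ pCore 5 (G ⧸ K), x * u ^ i = u ^ i * x → x = 1 := fun i hi x hx hc =>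
    by_contra fun x1 => hi ((h.quot K).eq_one ((h.quot K).ord_five ((h.quot K).five_grp hA hx) x1) hc (k := 4)
      (by rw [← pow_mul, mul_comm, pow_mul, ← QuotientGroup.mk_pow, u4, QuotientGroup.mk_one, one_pow]) (by decide))
  have uf : ∀ k ∈ pCoreOf 3 K, u * k = k * u → k = 1 := fun k hk hc => by
    have := h.four_cent hu hc
    rwa [pow_succ, h.three_grp hP hk, one_mul] at this
  by_cases h2 : u * u ∈ K
  · have h3 : u * u ∈ pCoreOf 2 K := le_pCoreOf_of_isNilpotent hN (IsPGroup.of_card_dvd_pow (n := 1) (by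
      rw [Nat.card_zpowers, orderOf_dvd_iff_pow_eq_one, ← u4]; simp [pow_succ, mul_assoc])) (zpowers_le.2 h2)
      (mem_zpowers _)
    have hcm : ∀ v ∈ pCoreOf 2 K, ∀ k ∈ pCoreOf 3 K, Commute v k := fun v hv k hk =>
      commute_of_normal_of_disjoint _ _ inferInstance inferInstance
        (IsPGroup.disjoint_of_ne 2 3 (by decide) _ _ (pCoreOf_isPGroup 2 K) hP) v k hv hk
    have h4 := fun k hk => inv_of_fpf (hcm _ h3) uf (k := k) hk
    obtain ⟨a, rfl⟩ := QuotientGroup.mk_surjective a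
    have h6 := key ⁅u, a⁆ (mul_mem ((inferInstance : (pCore 5 (G ⧸ K)).Normal).conj_mem _ ha u) (inv_mem ha))
      (comm_cent h4 a yP)
    refine a1 (fp 1 (fun e => ?_) _ ha (by simpa using (commutatorElement_eq_one_iff_commute.1 h6).symm.eq))
    have h7 : u ∈ pCoreOf 2 K := le_pCoreOf_of_isNilpotent hN (IsPGroup.of_card (n := 2) (by
      rw [Nat.card_zpowers, hu]; rfl)) (zpowers_le.2 ((QuotientGroup.eq_one_iff u).1 (by simpa using e))) (mem_zpowers _)
    simp [uf y yP (hcm u h7 y yP)] at hy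
  · have o4 : orderOf (u : G ⧸ K) = 2 ^ (1 + 1) := orderOf_eq_prime_pow
      (fun e => h2 ((QuotientGroup.eq_one_iff _).1 (by simpa [sq] using e)))
      (by rw [← QuotientGroup.mk_pow]; exact congrArg _ u4)
    obtain ⟨c, hc, e⟩ := kill (QuotientGroup.mk' K) Nat.prime_three Nat.prime_five (by decide) hP
      (by rw [QuotientGroup.ker_mk']; exact pCoreOf_le 3 K) (by rwa [QuotientGroup.ker_mk']) hA hr (g := u) (m := 4)
      (le_normalizer_of_normal (mem_top _)) (by decide)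
      (fun i h1 h2 => fp i (pow_ne_one_of_lt_orderOf h1.ne' (o4 ▸ h2))) (fun w hw => by
        have h1 : 2 ^ (1 + 1) ∣ orderOf w := o4 ▸ (show (w : G ⧸ K) = u from hw) ▸ orderOf_map_dvd (QuotientGroup.mk' K) w
        have h2 := h w
        have h3 := orderOf_pos w
        rw [← orderOf_dvd_iff_pow_eq_one, show orderOf w = 4 by omega]) ha
    subst e
    exact a1 (key c ha (hc y yP).symm)

end Ord6

end CL.OrdSix
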