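/-
Groups all of whose elements have order at most 6 (S4007), part C: structure of the nonsolvable groups.
-/
import Cfsg.Agent.Inv.Ord6B
import Cfsg.Agent.Grp.PGroupBasic

set_option autoImplicit false
open Cfsg CL.Grp Subgroup Equiv Equiv.Perm
open scoped commutatorElement

namespace CL.OrdSix

universe u

section Form

variable {V A : Type*} [Group V] [AddCommGroup A]

/-- an invariant form for a dihedral group of order 10 that vanishes on the fixed space of an involution is zero -/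
theorem form_zero (T X X' : V →* V) (F : V → V → A) (Y : A → A) (hl : ∀ a b c, F (a * b) c = F a c + F b c)
    (hr : ∀ a b c, F a (b * c) = F a b + F a c) (h2 : ∀ a b, F a b + F a b = 0) (hT : ∀ a, T (T a) = a)
    (hX : ∀ a, T (X a) = X' (T a)) (hX' : ∀ a, X (X' a) = a) (hY : ∀ a b, F (X a) (X b) = Y (F a b))
    (hf : ∀ a b, Y (Y (F a b)) = F a b → F a b = 0) (hs : ∀ v, ∃ w, v = w * (X (X w))⁻¹)
    (h0 : ∀ a b, F (T a * a) (T b * b) = 0) (a b : V) : F a b = 0 := by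
  have e : ∀ {c d : A}, d + d = 0 → c + d = 0 → c = d := fun k l => by rw [← sub_eq_zero, ← l, sub_eq_add_neg,
    neg_eq_of_add_eq_zero_left k]
  have l1 : ∀ c, F 1 c = 0 := fun c => by simpa using hl 1 1 c
  have r1 : ∀ c, F c 1 = 0 := fun c => by simpa using hr c 1 1
  have li : ∀ a c, F a⁻¹ c = F a c := fun a c => e (h2 _ _) (by rw [← hl, inv_mul_cancel, l1])
  have ri : ∀ a c, F c a⁻¹ = F c a := fun a c => e (h2 _ _) (by rw [← hr, inv_mul_cancel, r1])
  have Y0 : Y 0 = 0 := by rw [← l1 1, ← hY, map_one]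
  have c1 : ∀ a b, F (T a * a) (X' (T b * b)) = F (T a * a) (X (T b * b)) := fun a b => e (h2 _ _) (by
    rw [← h0 a (X (T b * b)), hX, map_mul T, hT]
    simp only [map_mul, hr]
    abel)
  have c2 : ∀ a b, F (X' (T a * a)) (T b * b) = F (X (T a * a)) (T b * b) := fun a b => e (h2 _ _) (by
    rw [← h0 (X (T a * a)) b, hX, map_mul T, hT]
    simp only [map_mul, hl]
    abel)
  have c3 : ∀ a b, F (X (T a * a)) (T b * b) = Y (F (T a * a) (X (T b * b))) := fun a b => by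
    rw [← c1, ← hY, hX']
  have c4 : ∀ a b, F (T a * a) (X (T b * b)) = 0 := fun a b => hf _ _ (by rw [← c3, ← c2, ← hY, hX'])
  have c5 : ∀ w, X (T (X w) * X w) = T w * X (X w) := fun w => by rw [map_mul, hX, hX']
  obtain ⟨a, rfl⟩ := hs a
  obtain ⟨b, rfl⟩ := hs b
  have d1 : ∀ c, F (a * (X (X a))⁻¹) c = F (T a * a) c + F (X (T (X a) * X a)) c := fun c => by
    rw [c5, hl, hl, hl, li, add_comm (F (T a) c), add_assoc, ← add_assoc (F (T a) c), h2, zero_add]
  have d2 : ∀ c, F c (b * (X (X b))⁻¹) = F c (T b * b) + F c (X (T (X b) * X b)) := fun c => by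
    rw [c5, hr, hr, hr, ri, add_comm (F c (T b)), add_assoc, ← add_assoc (F c (T b)), h2, zero_add]
  rw [d1, d2, d2, h0, c4, c3, c4, hY, h0, Y0, add_zero, add_zero]

end Form

open scoped IsMulCommutative in
/-- a normal 2-subgroup on which a dihedral group of order 10 acts is elementary abelian -/
theorem elem_of_d10 (G : Type u) [Group G] [Finite G] : Ord6 G → ∀ (Q : Subgroup G) [Q.Normal], IsPGroup 2 Q →
    ∀ x t : G, orderOf x = 5 → t * t = 1 → t * x * t⁻¹ = x⁻¹ → IsElementaryAbelian 2 Q := by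
  refine induction_on_card (P := fun G _ _ => Ord6 G → ∀ (Q : Subgroup G) [Q.Normal], IsPGroup 2 Q →
    ∀ x t : G, orderOf x = 5 → t * t = 1 → t * x * t⁻¹ = x⁻¹ → IsElementaryAbelian 2 Q) (fun G _ _ ih => ?_) G
  intro h Q hn hQ x t hx t2 tx
  by_cases h0 : Q = ⊥
  · subst h0
    exact ⟨inferInstance, fun a ha => by rw [mem_bot.1 ha, one_pow]⟩
  have ti : t⁻¹ = t := inv_eq_of_mul_eq_one_right t2
  have fp : ∀ q ∈ Q, Commute (x * x) q → q = 1 := fun q hq hc =>
    h.eq_one (x := x * x) (by rw [← sq, orderOf_pow' _ two_ne_zero, hx]; rfl) hc (h.two_grp hQ hq) (by decide)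
  have sq0 : ∀ q ∈ Q, (t * q * t⁻¹ * q) * (t * q * t⁻¹ * q) = 1 := fun q hq => by
    have h1 : t * q * t⁻¹ * q = (t * q) ^ 2 := by rw [ti, sq, mul_assoc (t * q)]
    obtain ⟨k, hk⟩ := hQ ⟨_, mul_mem (hn.conj_mem q hq t) hq⟩
    have h2 := h.two_el (g := t * q) (k := k + 1) (by rw [pow_succ', pow_mul, ← h1]; exact congrArg Subtype.val hk)
    rw [h1, ← pow_add, h2]
  let Z : Subgroup G := (center Q).map Q.subtype
  have : Nontrivial Q := (nontrivial_iff_ne_bot Q).2 h0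
  have hZ : Z ≠ ⊥ := fun e => (nontrivial_iff_ne_bot _).1 hQ.center_nontrivial
    ((map_eq_bot_iff_of_injective _ Q.subtype_injective).1 e)
  have o5 : orderOf (x : G ⧸ Z) = 5 := (h.quot Z).ord_five (by rw [← QuotientGroup.mk_pow, ← hx, pow_orderOf_eq_one]; rfl)
    fun e => by
      obtain ⟨z, -, e⟩ := (QuotientGroup.eq_one_iff x).1 e
      have := orderOf_dvd_of_pow_eq_one (h.two_grp hQ (e ▸ z.2 : x ∈ Q))
      rw [hx] at this
      omega
  obtain ⟨c1, c2⟩ := ih (G ⧸ Z) (card_quotient_lt hZ) (h.quot Z) (Q.map (QuotientGroup.mk' Z)) (hQ.map _) x t o5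
    (by rw [← QuotientGroup.mk_mul, t2]; rfl) (congrArg (QuotientGroup.mk' Z) tx)
  have mZ : ∀ q : Q, (q : G) ∈ Z → q ∈ center Q := fun q ⟨z, hz, e⟩ => Subtype.ext e ▸ hz
  have k1 : ∀ a b : Q, ⁅a, b⁆ ∈ center Q := fun a b => mZ _ ((QuotientGroup.eq_one_iff _).1
    (commutatorElement_eq_one_iff_mul_comm.2 (congrArg Subtype.val
      (c1.is_comm.comm ⟨_, mem_map_of_mem _ a.2⟩ ⟨_, mem_map_of_mem _ b.2⟩))))
  have k2 : ∀ a : Q, a * a ∈ center Q := fun a => mZ _ ((QuotientGroup.eq_one_iff _).1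
    ((sq _).symm.trans (c2 _ (mem_map_of_mem _ a.2))))
  let T : Q →* Q := (MulAut.conjNormal t).toMonoidHom
  let X : Q →* Q := (MulAut.conjNormal x).toMonoidHom
  let X' : Q →* Q := (MulAut.conjNormal x⁻¹).toMonoidHom
  have hl : ∀ a b c : Q, ⁅a * b, c⁆ = ⁅a, c⁆ * ⁅b, c⁆ := fun a b c => by
    calc _ = a * ⁅b, c⁆ * a⁻¹ * ⁅a, c⁆ := by simp only [commutatorElement_def]; group
      _ = _ := by rw [mem_center_iff.1 (k1 b c) a, mul_inv_cancel_right, mem_center_iff.1 (k1 a c)]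
  have h2 : ∀ a b : Q, ⁅a, b⁆ * ⁅a, b⁆ = 1 := fun a b => by
    rw [← hl, commutatorElement_eq_one_iff_mul_comm, mem_center_iff.1 (k2 a)]
  have hs : ∀ v : Q, ∃ w, v = w * (X (X w))⁻¹ := fun v => by
    obtain ⟨w, hw, e⟩ := CL.Perm.exists_comm_of_fpf (s := x * x) (fun q hq => hn.conj_mem q hq _) fp v.2
    exact ⟨⟨w, hw⟩, Subtype.ext (by simp [X, e, mul_assoc])⟩
  have hT : ∀ a, T (T a) = a := fun a => Subtype.ext (by
    simp only [T, MulEquiv.coe_toMonoidHom, MulAut.conjNormal_apply, ← mul_assoc, t2, one_mul]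
    rw [mul_assoc, ← mul_inv_rev, t2, inv_one, mul_one])
  have hX : ∀ a, T (X a) = X' (T a) := fun a => Subtype.ext (by
    simp only [T, X, X', MulEquiv.coe_toMonoidHom, MulAut.conjNormal_apply]
    calc _ = (t * x * t⁻¹) * (t * a * t⁻¹) * (t * x * t⁻¹)⁻¹ := by group
      _ = _ := by rw [tx])
  have hX' : ∀ a, X (X' a) = a := fun a => Subtype.ext (by simp [X, X', mul_assoc])
  have s0 : ∀ a : Q, (T a * a) * (T a * a) = 1 := fun a => Subtype.ext (sq0 a a.2)
  have hc : ∀ a b : Q, a * b = b * a := fun a b => by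
    let F : Q → Q → Additive (center Q) := fun a b => Additive.ofMul ⟨⁅a, b⁆, k1 a b⟩
    let Y : Additive (center Q) → Additive (center Q) := fun c => Additive.ofMul ⟨X c.toMul,
      mem_center_iff.2 fun g => by rw [← hX' g, ← map_mul, ← map_mul, mem_center_iff.1 c.toMul.2]⟩
    have := form_zero T X X' F Y (fun a b c => Subtype.ext (hl a b c)) (fun a b c => Subtype.ext ?_)
      (fun a b => Subtype.ext (h2 a b)) hT hX hX' (fun a b => Subtype.ext (map_commutatorElement X a b).symm)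
      (fun a b e => Subtype.ext (Subtype.ext (fp _ (⁅a, b⁆ : Q).2 ?_))) hs (fun a b => Subtype.ext ?_) a b
    · exact commutatorElement_eq_one_iff_mul_comm.1 (congrArg Subtype.val this)
    · change ⁅a, b * c⁆ = ⁅a, b⁆ * ⁅a, c⁆
      rw [← commutatorElement_inv, hl, mul_inv_rev, commutatorElement_inv, commutatorElement_inv,
        mem_center_iff.1 (k1 a b)]
    · have e1 : x * (x * (⁅a, b⁆ : Q) * x⁻¹) * x⁻¹ = (⁅a, b⁆ : Q) := congrArg (fun c => (c.toMul.1 : G)) e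
      exact mul_inv_eq_iff_eq_mul.1 (Eq.trans (by simp only [mul_inv_rev, mul_assoc]; rfl) e1)
    · change ⁅T a * a, T b * b⁆ = 1
      have e1 : T (a * b) * (a * b) = T a * a * (T b * b) * ⁅(T b)⁻¹, a⁻¹⁆ := by
        rw [map_mul, mul_assoc (T a * a), mul_assoc (T b), mem_center_iff.1 (k1 _ _) b, commutatorElement_def]
        group
      have e2 := s0 (a * b)
      rw [e1, mul_assoc, ← mul_assoc ⁅_, _⁆, ← mem_center_iff.1 (k1 _ _), mul_assoc _ ⁅_, _⁆, h2, mul_one] at e2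
      rw [commutatorElement_def, inv_eq_of_mul_eq_one_right (s0 a), inv_eq_of_mul_eq_one_right (s0 b), ← e2]
      simp only [mul_assoc]
  refine ⟨⟨⟨hc⟩⟩, fun v hv => ?_⟩
  obtain ⟨w, e⟩ := hs ⟨v, hv⟩
  have e1 := congrArg X (s0 (X w))
  rw [map_one, map_mul, map_mul, hX, hX'] at e1
  have e2 := s0 w
  have e3 : (⟨v, hv⟩ : Q) ^ 2 = 1 := by
    let : CommGroup Q := { (inferInstance : Group Q) with mul_comm := hc }
    rw [e, sq, mul_mul_mul_comm, ← mul_inv, mul_inv_eq_one]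
    rw [mul_mul_mul_comm] at e1 e2
    exact mul_left_cancel (e2.trans e1.symm)
  exact congrArg Subtype.val e3

section Top

variable {G : Type*} [Group G] [Finite G] {n : ℕ} {π : G →* Perm (Fin n)}

omit [Finite G] in
theorem alt_le_or (hn : 5 ≤ n) (hr : alternatingGroup (Fin n) ≤ π.range) (N : Subgroup G) [hN : N.Normal] :
    alternatingGroup (Fin n) ≤ N.map π ∨ N ≤ π.ker := by
  have := alternatingGroup.isSimpleGroup (α := Fin n) (by simpa using hn)
  have : ((N.map π).subgroupOf (alternatingGroup (Fin n))).Normal := ⟨by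
    rintro a ⟨k, hk, e⟩ g
    obtain ⟨l, hl⟩ := hr g.2
    exact ⟨l * k * l⁻¹, hN.conj_mem k hk l, by rw [map_mul, map_mul, map_inv, e, hl]; rfl⟩⟩
  refine (this.eq_bot_or_eq_top).symm.imp subgroupOf_eq_top.1 fun h g hg => ?_
  refine CL.Known.eq_one_of_commute_alt (by simp; omega) fun c hc => ?_
  obtain ⟨k, rfl⟩ := hr hc.mem_alternatingGroup
  have h1 : π ⁅g, k⁆ ∈ alternatingGroup (Fin n) := by
    simp [commutatorElement_def, mem_alternatingGroup, hc.sign]
  have h2 : (⟨_, h1⟩ : alternatingGroup (Fin n)) ∈ (N.map π).subgroupOf (alternatingGroup (Fin n)) :=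
    mem_map_of_mem π (by rw [commutatorElement_def, mul_assoc, mul_assoc, ← mul_assoc k]
                         exact mul_mem hg (hN.conj_mem _ (inv_mem hg) k))
  rw [h] at h2
  exact commutatorElement_eq_one_iff_mul_comm.1 ((map_commutatorElement π g k).symm.trans
    (congrArg Subtype.val (mem_bot.1 h2)))

theorem not_solv_alt (hn : 5 ≤ n) : ¬ Group.IsSolvable (alternatingGroup (Fin n)) := fun h => by
  have : Nontrivial (Fin n) := Fin.nontrivial_iff_two_le.2 (by omega)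
  refine Equiv.Perm.not_isSolvable (Fin n) (by simpa using hn)
    ((Group.isSolvable_iff_subgroup_quotient (alternatingGroup (Fin n))).2 ⟨h, ?_⟩)
  have : IsCyclic (Perm (Fin n) ⧸ alternatingGroup (Fin n)) :=
    isCyclic_of_prime_card (hp := ⟨Nat.prime_two⟩) alternatingGroup.index_eq_two
  exact Group.isSolvable_of_comm fun a b => IsCyclic.commGroup.mul_comm a b

omit [Finite G] in
theorem le_ker_of_solv (hn : 5 ≤ n) (hr : alternatingGroup (Fin n) ≤ π.range) {N : Subgroup G} [N.Normal]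
    (hN : Group.IsSolvable N) : N ≤ π.ker :=
  (alt_le_or hn hr N).resolve_left fun k =>
    not_solv_alt hn (isSolvable_of_le_of_isSolvable (isSolvable_map_of_isSolvable hN π) k)

theorem kill_cfg (h : Ord6 G) (hn : 5 ≤ n) (hr : alternatingGroup (Fin n) ≤ π.range) {p r k : ℕ} (hp : p.Prime)
    (p5 : p ≠ 5) (hr' : r.Prime) (hpr : r ≠ p) (hK : IsPGroup p π.ker) (a b s : Perm (Fin n)) (hs : s ∈ π.range)
    (sk : s ^ p ^ k = 1) (hk : ∀ (g : G) j, g ^ p ^ j = 1 → g ^ p ^ k = 1)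
    (H : sign a = 1 ∧ sign b = 1 ∧ a ≠ 1 ∧ a * b = b * a ∧ a ^ r = 1 ∧ b ^ r = 1 ∧
      (∀ i j : Fin r, ∃ i' j' : Fin r, s * (a ^ i.1 * b ^ j.1) * s⁻¹ = a ^ i'.1 * b ^ j'.1) ∧
      ∀ l : Fin (p ^ k), l.1 ≠ 0 → ∀ i j : Fin r, a ^ i.1 * b ^ j.1 * s ^ l.1 = s ^ l.1 * (a ^ i.1 * b ^ j.1) →
        a ^ i.1 * b ^ j.1 = 1) : π.ker = ⊥ := by
  obtain ⟨sa, sb, a1, ab, ar, br, hN, hf⟩ := H
  have := Fact.mk hp
  have hc : Commute a b := ab
  let A : Subgroup (Perm (Fin n)) := zpowers a ⊔ zpowers b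
  have mA : ∀ x ∈ A, ∃ i j : Fin r, x = a ^ i.1 * b ^ j.1 := fun x hx => by
    obtain ⟨y, hy, z, hz, rfl⟩ := (mem_sup_of_le_normalizer (le_normalizer_of_le_centralizer
      (zpowers_le.2 fun y hy => let ⟨i, hi⟩ := mem_zpowers_iff.1 hy; hi ▸ (hc.symm.zpow_left i).eq))).1 hx
    obtain ⟨i, rfl⟩ := (mem_powers_iff_mem_zpowers.2 hy)
    obtain ⟨j, rfl⟩ := (mem_powers_iff_mem_zpowers.2 hz)
    exact ⟨⟨i % r, Nat.mod_lt _ hr'.pos⟩, ⟨j % r, Nat.mod_lt _ hr'.pos⟩, by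
      rw [← pow_eq_pow_mod _ ar, ← pow_eq_pow_mod _ br]⟩
  have Am : ∀ i j : ℕ, a ^ i * b ^ j ∈ A := fun i j =>
    mul_mem_sup (pow_mem (mem_zpowers a) i) (pow_mem (mem_zpowers b) j)
  obtain ⟨g, rfl⟩ := hs
  obtain ⟨e, he⟩ := IsPGroup.iff_card.1 hK
  have h1 := kill π (m := p ^ k) hp hr' hpr hK le_rfl
    (fun d => hpr ((Nat.prime_dvd_prime_iff_eq hr' hp).1 (hr'.dvd_of_dvd_pow (he ▸ d)))) (A := A) (fun x => ⟨1, by
      obtain ⟨i, j, e⟩ := mA x x.2
      refine Subtype.ext ?_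
      rw [pow_one, Subgroup.coe_pow, e, (hc.pow_pow _ _).mul_pow, ← pow_mul, ← pow_mul, mul_comm _ r, mul_comm _ r, pow_mul,
        pow_mul, ar, br, one_pow, one_pow, mul_one, Subgroup.coe_one]⟩)
    ((sup_le (zpowers_le.2 sa) (zpowers_le.2 sb)).trans hr) (g := g) (mem_normalizer_fintype fun x hx => by
      obtain ⟨i, j, rfl⟩ := mA x hx
      obtain ⟨i', j', e⟩ := hN i j
      exact e ▸ Am _ _) (pow_pos hp.pos k) (fun l l0 l1 x hx => by
      obtain ⟨i, j, rfl⟩ := mA x hx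
      exact hf ⟨l, l1⟩ l0.ne' i j) fun y hy => by
      obtain ⟨j, hj⟩ := hK ⟨y ^ p ^ k, by rw [MonoidHom.mem_ker, map_pow, hy, sk]⟩
      exact hk y (k + j) (by rw [pow_add, pow_mul]; exact congrArg Subtype.val hj)
  rcases alt_le_or hn hr (centralizer (π.ker : Set G)) with h2 | h2
  · obtain ⟨x, hx⟩ := ((h.of_surj _ π.rangeRestrict_surjective).of_inj (inclusion hr) (inclusion_injective hr)).exists_five
      (not_solv_alt hn)
    obtain ⟨c, hc, e⟩ := h2 x.2
    have o5 := h.eq_five (((orderOf_coe x).trans hx) ▸ e ▸ orderOf_map_dvd π c)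
    exact eq_bot_iff.2 fun y hy => h.eq_one_of_mem o5
      (fun d => p5 ((Nat.prime_dvd_prime_iff_eq Nat.prime_five hp).1 (Nat.prime_five.dvd_of_dvd_pow (he ▸ d))).symm)
      hy (hc y hy).symm
  · obtain ⟨c, hc, e⟩ := h1 (mem_sup_left (mem_zpowers a))
    exact absurd (e.symm.trans (h2 hc)) a1

theorem kill_three (h : Ord6 G) (hn : n = 5 ∨ n = 6) (hr : alternatingGroup (Fin n) ≤ π.range)
    (hK : IsPGroup 3 π.ker) : π.ker = ⊥ := by
  rcases hn with rfl | rfl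
  all_goals
    exact kill_cfg h (by decide) hr (k := 1) Nat.prime_three (by decide) Nat.prime_two (by decide) hK
      (swap 0 1 * swap 2 3) (swap 0 2 * swap 1 3) (swap 1 3 * swap 1 2) (hr (mem_alternatingGroup.2 (by decide)))
      (by decide) (fun _ _ => h.three_el) (by decide +kernel)

theorem kill_six (h : Ord6 G) {π : G →* Perm (Fin 6)} (hr : alternatingGroup (Fin 6) ≤ π.range)
    (hK : IsPGroup 2 π.ker) : π.ker = ⊥ :=
  kill_cfg h (by decide) hr (k := 2) Nat.prime_two (by decide) Nat.prime_three (by decide) hK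
    (swap 0 2 * swap 0 1) (swap 3 5 * swap 3 4) (swap 0 3 * (swap 1 5 * swap 1 2 * swap 1 4))
    (hr (mem_alternatingGroup.2 (by decide))) (by decide) (fun _ _ => h.two_el) (by decide +kernel)

theorem kill_five (h : Ord6 G) {π : G →* Perm (Fin 5)} (hr : π.range = ⊤) (hK : IsPGroup 2 π.ker) : π.ker = ⊥ :=
  kill_cfg h (by decide) (hr ▸ le_top) (k := 2) Nat.prime_two (by decide) Nat.prime_five (by decide) hK
    (finRotate 5) 1 (swap 1 3 * swap 1 4 * swap 1 2) (hr ▸ mem_top _) (by decide) (fun _ _ => h.two_el)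
    (by decide +kernel)

theorem two_ker (h : Ord6 G) (hs : ¬ Group.IsSolvable G) (hn : n = 5 ∨ n = 6) (hr : alternatingGroup (Fin n) ≤ π.range)
    (hK : Group.IsSolvable π.ker) : IsPGroup 2 π.ker := by
  have h5 := h.not_five hs hK
  obtain ⟨x, hx⟩ := h.exists_five hs
  have hN := h.nilp hx h5
  let π' := QuotientGroup.lift (pCoreOf 2 π.ker) π (pCoreOf_le 2 π.ker)
  have h1 := kill_three (π := π') (h.quot _) hn (fun a ha => let ⟨g, hg⟩ := hr ha; ⟨g, hg⟩) fun ⟨g, hg⟩ => ⟨1, by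
    obtain ⟨g, rfl⟩ := QuotientGroup.mk_surjective g
    exact Subtype.ext ((QuotientGroup.eq_one_iff (g ^ 3)).2 (h.cube_mem hN h5 hg))⟩
  refine (pCoreOf_isPGroup 2 π.ker).to_le fun g hg => (QuotientGroup.eq_one_iff g).1 (mem_bot.1 ?_)
  rw [← h1]
  exact hg

end Top

theorem d10_alt : ∃ x t : alternatingGroup (Fin 5), x ^ 5 = 1 ∧ x ≠ 1 ∧ t * t = 1 ∧ t * x * t⁻¹ = x⁻¹ :=
  ⟨⟨finRotate 5, mem_alternatingGroup.2 (by decide)⟩, ⟨swap 1 4 * swap 2 3, mem_alternatingGroup.2 (by decide)⟩,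
    by decide⟩

theorem elem_ker {G : Type u} [Group G] [Finite G] (h : Ord6 G) {ψ : G →* alternatingGroup (Fin 5)}
    (hψ : Function.Surjective ψ) (hK : IsPGroup 2 ψ.ker) : IsElementaryAbelian 2 ψ.ker := by
  obtain ⟨x, t, x5, x1, t2, tx⟩ := d10_alt
  have := Fact.mk Nat.prime_five
  have ox : orderOf x = 5 := orderOf_eq_prime x5 x1
  obtain ⟨R, hR, e, hn⟩ := lift_sub ψ Nat.prime_five (A := zpowers x)
    (IsPGroup.of_card (n := 1) (by rw [Nat.card_zpowers, ox]; rfl)) fun a _ => hψ a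
  obtain ⟨t, rfl⟩ := hψ t
  obtain ⟨t', ht, et⟩ := hn t (mem_normalizer_zpowers_of_conj_mem_zpowers (tx ▸ inv_mem (mem_zpowers x)))
  obtain ⟨x, hx, rfl⟩ : x ∈ R.map ψ := e ▸ mem_zpowers x
  have hd : ∀ g ∈ R, ψ g = 1 → g = 1 := fun g hg k =>
    mem_bot.1 ((IsPGroup.disjoint_of_ne 5 2 (by decide) _ _ hR hK).le_bot (mem_inf.2 ⟨hg, k⟩))
  have o5 := h.eq_five (ox ▸ orderOf_map_dvd ψ x)
  have e1 : t' * x * t'⁻¹ = x⁻¹ := eq_inv_of_mul_eq_one_left (hd _ (mul_mem ((mem_normalizer_iff.1 ht x).1 hx) hx)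
    (by rw [map_mul, map_mul, map_mul, map_inv, et, tx, inv_mul_cancel]))
  refine elem_of_d10 G h _ hK x t' o5 (h.eq_one o5 ?_ (h.two_grp hK (g := t' * t') ?_) (by decide)) e1
  · rw [Commute, SemiconjBy, eq_comm, ← mul_inv_eq_iff_eq_mul]
    calc _ = t' * (t' * x * t'⁻¹) * t'⁻¹ := by group
      _ = t' * x⁻¹ * t'⁻¹ := by rw [e1]
      _ = (t' * x * t'⁻¹)⁻¹ := by group
      _ = x := by rw [e1, inv_inv]
  · rw [MonoidHom.mem_ker, map_mul, et, t2]

/-- the structure of the nonsolvable groups -/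
theorem struct {G : Type u} [Group G] [Finite G] (h : Ord6 G) (hs : ¬ Group.IsSolvable G) (hI : IH.{u} (Nat.card G)) :
    (∃ ψ : G →* alternatingGroup (Fin 5), Function.Surjective ψ ∧ IsElementaryAbelian 2 ψ.ker) ∨
      ∃ n, (n = 5 ∨ n = 6) ∧ ∃ π : G →* Perm (Fin n), alternatingGroup (Fin n) ≤ π.range ∧ π.ker = ⊥ := by
  obtain ⟨n, hn, π, hr, hK⟩ := top_of G h hs hI
  have h2 := two_ker h hs hn hr hK
  by_cases h0 : π.ker = ⊥
  · exact .inr ⟨n, hn, π, hr, h0⟩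
  rcases hn with rfl | rfl
  · have h3 : π.range = alternatingGroup (Fin 5) := by_contra fun e => h0 (kill_five h
      ((isCoatom_of_index_prime (by rw [alternatingGroup.index_eq_two]; exact Nat.prime_two)).2 _
        (lt_of_le_of_ne hr (Ne.symm e))) h2)
    let ψ := π.codRestrict (alternatingGroup (Fin 5)) fun g => h3 ▸ MonoidHom.mem_range.2 ⟨g, rfl⟩
    have hψ : Function.Surjective ψ := fun a => let ⟨g, hg⟩ := hr a.2; ⟨g, Subtype.ext hg⟩
    exact .inl ⟨ψ, hψ, elem_ker h hψ (by rwa [MonoidHom.ker_codRestrict])⟩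
  · exact absurd (kill_six h hr h2) h0

end CL.OrdSix
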