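/-
Groups all of whose elements have order at most 6 (S4007), part E: a 2-local subgroup `Q.A₅`.
-/
import Cfsg.Agent.Inv.Ord6C
import Cfsg.Agent.Even.CharP
import Cfsg.Agent.Loc.DihLemma
import Cfsg.Agent.Grp.Frob

set_option autoImplicit false
open Cfsg CL.Grp CL.Even CL.Loc Subgroup
open scoped commutatorElement

namespace CL.OrdSix

theorem p5_sq : ∀ s : Equiv.Perm (Fin 5), s * s * (s * s) = 1 → Equiv.Perm.sign s = 1 → s * s = 1 := by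
  decide +kernel

theorem p5_d10 : ∀ t : Equiv.Perm (Fin 5), t * t = 1 → t ≠ 1 → Equiv.Perm.sign t = 1 →
    ∃ s : Equiv.Perm (Fin 5), (t * (s * t * s⁻¹)) ^ 5 = 1 ∧ t * (s * t * s⁻¹) ≠ 1 ∧ Equiv.Perm.sign s = 1 := by
  decide +kernel

theorem p5_conj : ∀ t : Equiv.Perm (Fin 5), t * t = 1 → t ≠ 1 → Equiv.Perm.sign t = 1 →
    ∃ s : Equiv.Perm (Fin 5), s * t * s⁻¹ = Equiv.swap 0 1 * Equiv.swap 2 3 ∧ Equiv.Perm.sign s = 1 := by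
  decide +kernel

theorem p5_cent : ∀ t : Equiv.Perm (Fin 5), t * t = 1 → t ≠ 1 → Equiv.Perm.sign t = 1 →
    ∀ s : Equiv.Perm (Fin 5), s * t = t * s → Equiv.Perm.sign s = 1 → s * s = 1 := by
  decide +kernel

theorem p5_five : ∀ t : Equiv.Perm (Fin 5), t * t = 1 → t ≠ 1 → Equiv.Perm.sign t = 1 →
    ∀ u : Equiv.Perm (Fin 5), u * u = 1 → u ≠ 1 → Equiv.Perm.sign u = 1 →
      (∀ s : Equiv.Perm (Fin 5), s * t = t * s → Equiv.Perm.sign s = 1 → s * u = u * s) ∨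
        ∃ s : Equiv.Perm (Fin 5), s * u = u * s ∧ (t * s) ^ 5 = 1 ∧ t * s ≠ 1 ∧ Equiv.Perm.sign s = 1 := by
  decide +kernel

theorem p5_three : ∀ t : Equiv.Perm (Fin 5), t * t = 1 → t ≠ 1 → Equiv.Perm.sign t = 1 →
    ∃ y : Equiv.Perm (Fin 5), y * y * y = 1 ∧ y ≠ 1 ∧ y * t * y⁻¹ * t = t * (y * t * y⁻¹) ∧ Equiv.Perm.sign y = 1 := by
  decide +kernel

variable {G : Type*} [Group G] [Finite G]

theorem Ord6.five_mod (h : Ord6 G) {x : G} (hx : orderOf x = 5) {R : Subgroup G} (hR : IsPGroup 2 R)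
    (hn : x ∈ 𝒩(R)) : Nat.card R % 5 = 1 := by
  have h1 := card_dvd_card_of_free_on (A := zpowers (ConjAct.toConjAct x)) (X := G) ((R : Set G) \ {1})
    (fun ⟨_, i, rfl⟩ r hr => ⟨conj_mem (zpow_mem hn i) hr.1, fun e => hr.2 (conj_eq_one_iff.1 e)⟩)
    fun ⟨_, i, rfl⟩ r hr e => Subtype.ext (by_contra fun k => hr.2 (h.eq_one (x := x ^ i)
      (h.ord_five (by rw [← zpow_natCast, ← zpow_mul, mul_comm, zpow_mul, zpow_natCast, ← hx, pow_orderOf_eq_one,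
        one_zpow]) k) (mul_inv_eq_iff_eq_mul.1 e) (h.two_grp hR hr.1) (by decide)))
  have h2 : Nat.card ((R : Set G) \ {1} : Set G) + 1 = Nat.card R := Set.ncard_sdiff_singleton_add_one R.one_mem
  rw [Nat.card_zpowers, MulEquiv.orderOf_eq, hx] at h1
  omega

/-- a dihedral section of order 6 in a solvable group of characteristic 2 -/
theorem Ord6.dih (h : Ord6 G) (h5 : ¬ 5 ∣ Nat.card G) (hC : 𝒞(pCore 2 G) ≤ pCore 2 G) {A : Subgroup G}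
    (hA : IsElementaryAbelian 2 A) (hn : ¬ A ≤ pCore 2 G) : ∃ (R : Subgroup G) (y q : G), IsPGroup 2 R ∧ q ∈ A ∧
      orderOf y = 3 ∧ q * y * q⁻¹ = y⁻¹ ∧ y ∈ 𝒩(R) ∧ A ≤ 𝒩(R) ∧ R.relIndex A = 2 ∧ q ∉ R ∧ y ∉ 𝒞(R) := by
  have := h.solv_of_five h5
  have := Fact.mk Nat.prime_three
  let π := QuotientGroup.mk' (pCore 2 G)
  have hb := h.quot (pCore 2 G)
  have h1 : pPrimeCore 3 (G ⧸ pCore 2 G) = ⊥ := by
    rw [eq_bot_iff, ← CL.Grp.pCore_quotient_pCore 2 G]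
    refine le_pCore fun g => ⟨2, orderOf_dvd_iff_pow_eq_one.1 (((pPrimeCore_coprime 3 _).coprime_dvd_left
      (orderOf_dvd_natCard g)).dvd_of_dvd_mul_left (orderOf_dvd_of_pow_eq_one (Subtype.ext (hb.pow_twelve fun e => h5
        ((e.trans (orderOf_dvd_natCard _)).trans (card_quotient_dvd_card _))))))⟩
  have h3 := pCore_isPGroup 3 (G ⧸ pCore 2 G)
  obtain ⟨y, hy, hy1, hy2⟩ : ∃ y ∈ pCore 3 (G ⧸ pCore 2 G), A.map π ≤ eigStab y ∧ y ∉ 𝒞(A.map π) := by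
    by_contra k
    push Not at k
    obtain ⟨n, hn'⟩ := IsPGroup.iff_card.1 h3
    have h2 := (le_centralizer_iff.1 (le_of_forall_eig (elem_map π hA) le_normalizer_of_normal
      (fun d => absurd (Nat.prime_two.dvd_of_dvd_pow (hn' ▸ d)) (by decide)) k)).trans
      (centralizer_pCore_le_of_isSolvable h1)
    refine hn fun a ha => (QuotientGroup.eq_one_iff a).1 (mem_bot.1 ((IsPGroup.disjoint_of_ne 2 3 (by decide) _ _
      (elem_isP (elem_map π hA)) h3).le_bot (mem_inf.2 ⟨mem_map_of_mem π ha, h2 (mem_map_of_mem π ha)⟩)))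
  obtain ⟨q, hq, hq1⟩ : ∃ q ∈ A, π q * y ≠ y * π q := by
    by_contra k
    push Not at k
    exact hy2 fun _ ⟨q, hq, e⟩ => e ▸ k q hq
  have hq2 : π q * y * (π q)⁻¹ = y⁻¹ :=
    (hy1 (mem_map_of_mem π hq)).resolve_left fun e => hq1 (mul_inv_eq_iff_eq_mul.1 e)
  have y3 := hb.three_grp h3 hy
  have q2 : q * q = 1 := sq q ▸ hA.2 q hq
  obtain ⟨w, rfl⟩ := QuotientGroup.mk'_surjective _ y
  have e1 : π ⁅q, w⁆ = π w := by
    rw [map_commutatorElement, commutatorElement_def, hq2, ← mul_inv_rev, inv_eq_iff_mul_eq_one, ← pow_three', y3]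
  have e2 : π (⁅q, w⁆ ^ 4) = π w := by rw [map_pow, e1, pow_succ, y3, one_mul]
  have o3 : orderOf (⁅q, w⁆ ^ 4) = 3 := h.ord_three ((e1 ▸ orderOf_eq_prime y3 fun e => hq1 (by
    rw [e, mul_one, one_mul]) : orderOf (π ⁅q, w⁆) = 3) ▸ orderOf_map_dvd π _)
  have hk : pCore 2 G ≤ (A.map π ⊓ centralizer {π w}).comap π := fun g hg => by
    rw [mem_comap, show π g = 1 from (QuotientGroup.eq_one_iff g).2 hg]
    exact one_mem _
  refine ⟨(A.map π ⊓ centralizer {π w}).comap π, ⁅q, w⁆ ^ 4, q, ((elem_isP (elem_map π hA)).to_le inf_le_left).comap_of_ker_isPGroup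
    _ (by rw [QuotientGroup.ker_mk']; exact pCore_isPGroup 2 G), hq, o3, ?_, le_normalizer_comap π ?_,
    fun a ha => le_normalizer_comap π ?_, ?_, fun k => hq1 (k.2 _ rfl).symm, fun k => ?_⟩
  · rw [← conj_pow, ← inv_pow, commutatorElement_inv, commutatorElement_def, commutatorElement_def, ← mul_assoc,
      ← mul_assoc, ← mul_assoc, q2, one_mul, inv_eq_of_mul_eq_one_right q2]
  · rw [mem_comap, e2]
    exact cent_le_norm _ fun g hg => (hg.2 _ rfl).symm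
  · exact cent_le_norm _ fun g hg => (elem_le_cent (elem_map π hA) (mem_map_of_mem π ha)) g hg.1
  · rw [relIndex_comap, inf_relIndex_left]
    exact ((Nat.dvd_prime Nat.prime_two).1 (relIndex_centralizer_dvd_two hy1)).resolve_left fun e =>
      hq1 ((relIndex_eq_one.1 e (mem_map_of_mem π hq)) _ rfl).symm
  · have := eq_one_of_coprime_of_mem (pCore_isPGroup 2 G) (by rw [o3]; decide) (hC (cent_mono hk k))
    simp [this] at o3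

/-- `N(Q) / Q ≅ A₅` with `Q` elementary abelian -/
structure Lc (Q : Subgroup G) (ψ : 𝒩(Q) →* alternatingGroup (Fin 5)) : Prop where
  ord : Ord6 G
  el : IsElementaryAbelian 2 Q
  ne : Q ≠ ⊥
  surj : Function.Surjective ψ
  ker : ∀ g : 𝒩(Q), ψ g = 1 ↔ (g : G) ∈ Q

namespace Lc

variable {Q : Subgroup G} {ψ : 𝒩(Q) →* alternatingGroup (Fin 5)} (h : Lc Q ψ)
include h

omit [Finite G] in
theorem sq {q : G} (hq : q ∈ Q) : q * q = 1 := pow_two q ▸ h.el.2 q hq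

omit [Finite G] in
theorem comm {a b : G} (ha : a ∈ Q) (hb : b ∈ Q) : a * b = b * a := elem_le_cent h.el hb a ha

omit [Finite G] in
theorem sq_mem {r : G} (hr : r ∈ 𝒩(Q)) (h4 : r ^ 4 = 1) : r * r ∈ Q :=
  (h.ker (⟨r, hr⟩ * ⟨r, hr⟩)).1 (by
    rw [map_mul]
    refine Subtype.ext (p5_sq _ (congrArg Subtype.val (?_ : ψ ⟨r, hr⟩ * ψ ⟨r, hr⟩ * (ψ ⟨r, hr⟩ * ψ ⟨r, hr⟩) = 1))
      (ψ ⟨r, hr⟩).2)
    rw [← map_mul, ← map_mul, ← map_one ψ]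
    exact congrArg ψ (Subtype.ext (by simpa [pow_succ, mul_assoc] using h4)))

omit [Finite G] in
theorem inv {r : 𝒩(Q)} (h1 : (r : G) ∉ Q) (h2 : (r : G) * r ∈ Q) :
    (ψ r : Equiv.Perm (Fin 5)) * ψ r = 1 ∧ (ψ r : Equiv.Perm (Fin 5)) ≠ 1 :=
  ⟨congrArg Subtype.val ((map_mul ψ r r).symm.trans ((h.ker _).2 h2)), fun e => h1 ((h.ker r).1 (Subtype.ext e))⟩

theorem eq_one {x : 𝒩(Q)} (h5 : (ψ x : Equiv.Perm (Fin 5)) ^ 5 = 1) (h1 : (ψ x : Equiv.Perm (Fin 5)) ≠ 1) {c : G}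
    (hc : c ∈ Q) (e : (x : G) * c = c * x) : c = 1 := by
  have o5 : orderOf (ψ x) = 5 := orderOf_coe (ψ x) ▸ orderOf_eq_prime (hp := ⟨Nat.prime_five⟩) h5 h1
  exact h.ord.eq_one (h.ord.eq_five (orderOf_coe x ▸ o5 ▸ orderOf_map_dvd ψ x)) e (h.el.2 c hc) (by decide)

theorem card_mod : Nat.card Q % 5 = 1 := by
  obtain ⟨x, -, x5, x1, -⟩ := d10_alt
  obtain ⟨x, rfl⟩ := h.surj x
  exact h.ord.five_mod (h.ord.eq_five (orderOf_coe x ▸ orderOf_eq_prime (hp := ⟨Nat.prime_five⟩) x5 x1 ▸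
    orderOf_map_dvd ψ x)) (elem_isP h.el) x.2

omit [Finite G] in
theorem comm_mem {r q : G} (hr : r ∈ 𝒩(Q)) (h2 : r * r ∈ Q) (hq : q ∈ Q) :
    r * q * r⁻¹ * q ∈ Q ⊓ centralizer {r} := by
  refine mem_inf.2 ⟨mul_mem (conj_mem hr hq) hq, mem_centralizer_singleton_iff.2 ?_⟩
  rw [h.comm (conj_mem hr hq) hq, eq_comm, ← mul_inv_eq_iff_eq_mul]
  calc _ = r * q * r⁻¹ * (r * r * q) * (r * r)⁻¹ := by group
    _ = _ := by rw [h.comm h2 hq, h.comm hq (conj_mem hr hq)]; group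

theorem card_sq {r : G} (hr : r ∈ 𝒩(Q)) (h1 : r ∉ Q) (h2 : r * r ∈ Q) :
    Nat.card ↥(Q ⊓ centralizer {r}) * Nat.card ↥(Q ⊓ centralizer {r}) = Nat.card Q ∧
      ∀ c ∈ Q ⊓ centralizer {r}, ∃ q ∈ Q, c = r * q * r⁻¹ * q := by
  let f : Q →* G := ⟨⟨fun q => r * q * r⁻¹ * q, by simp⟩, fun a b => by
    simp only [coe_mul]
    rw [mul_assoc (r * a * r⁻¹), ← mul_assoc (a : G), h.comm a.2 (conj_mem hr b.2)]
    group⟩
  have k1 : f.range ≤ Q ⊓ centralizer {r} := fun _ ⟨q, e⟩ => e ▸ h.comm_mem hr h2 q.2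
  have k2 : f.ker = (Q ⊓ centralizer {r}).subgroupOf Q := Subgroup.ext fun q => by
    rw [MonoidHom.mem_ker, mem_subgroupOf, mem_inf, mem_centralizer_singleton_iff, and_iff_right q.2, eq_comm (b := r * q),
      ← mul_inv_eq_iff_eq_mul]
    change r * q * r⁻¹ * q = 1 ↔ _
    rw [mul_eq_one_iff_eq_inv, inv_eq_of_mul_eq_one_right (h.sq q.2)]
  have k3 := f.ker.card_mul_index
  rw [index_ker, k2, card_subgroupOf_of_le inf_le_left] at k3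
  obtain ⟨i1, i2⟩ := h.inv (r := ⟨r, hr⟩) h1 h2
  obtain ⟨s, s5, s1, hs⟩ := p5_d10 _ i1 i2 (ψ _).2
  obtain ⟨s, rfl⟩ : ∃ s' : 𝒩(Q), (ψ s' : Equiv.Perm (Fin 5)) = s :=
    let ⟨s', e⟩ := h.surj ⟨s, hs⟩; ⟨s', congrArg Subtype.val e⟩
  have k4 : Q ⊓ centralizer {r} ⊓ cj (s : G) (Q ⊓ centralizer {r}) = ⊥ := eq_bot_iff.2 fun c hc =>
    h.eq_one (x := ⟨r, hr⟩ * (s * ⟨r, hr⟩ * s⁻¹)) (by simpa using s5) (by simpa using s1) hc.1.1 (by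
      have e1 := mem_centralizer_singleton_iff.1 hc.1.2
      have e2 := mem_centralizer_singleton_iff.1 (mem_cj.1 hc.2).2
      change r * (s * r * (s : G)⁻¹) * c = c * (r * (s * r * (s : G)⁻¹))
      calc _ = r * s * (r * ((s : G)⁻¹ * c * s)) * (s : G)⁻¹ := by group
        _ = r * c * (s * r * (s : G)⁻¹) := by rw [← e2]; group
        _ = _ := by rw [← e1, mul_assoc])
  have k5 := card_inf_mul_relIndex (Q ⊓ centralizer {r}) (cj (s : G) (Q ⊓ centralizer {r}))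
  rw [k4, card_bot, one_mul, card_cj] at k5
  have k6 := relIndex_le_of_le_right (H := Q ⊓ centralizer {r}) (cj_le_of_le (H := Q ⊓ centralizer {r}) inf_le_left s.2)
    index_ne_zero_of_finite
  have k7 := card_mul_relIndex (inf_le_left : Q ⊓ centralizer {r} ≤ Q)
  have k8 := card_le_of_le k1
  have k9 : Nat.card f.range = Nat.card ↥(Q ⊓ centralizer {r}) := le_antisymm k8
    (Nat.le_of_mul_le_mul_left (by rw [k3, ← k7]; exact Nat.mul_le_mul_left _ (k5 ▸ k6)) Nat.card_pos)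
  refine ⟨k9 ▸ k3, fun c hc => ?_⟩
  obtain ⟨q, e⟩ := (eq_of_le_of_card_ge k1 k9.ge).ge hc
  exact ⟨q, q.2, e.symm⟩

theorem four {r : G} (hr : r ∈ 𝒩(Q)) (h1 : r ∉ Q) (h2 : r * r ∈ Q) (h8 : Nat.card ↥(Q ⊓ centralizer {r}) ≤ 8) :
    Nat.card ↥(Q ⊓ centralizer {r}) = 4 ∧ Nat.card Q = 16 := by
  have k1 := (h.card_sq hr h1 h2).1
  have k2 := h.card_mod
  have k3 := one_lt_card_iff_ne_bot Q |>.2 h.ne
  obtain ⟨n, hn⟩ := IsPGroup.iff_card.1 ((elem_isP h.el).to_le (inf_le_left : Q ⊓ centralizer {r} ≤ Q))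
  rw [hn] at k1 h8 ⊢
  have : n ≤ 3 := (Nat.pow_le_pow_iff_right (a := 2) (by decide)).1 h8
  interval_cases n <;> omega

theorem relIndex_dvd {P : Subgroup G} (hP : IsPGroup 2 P) (hle : P ≤ 𝒩(Q)) : Q.relIndex P ∣ 4 := by
  have k1 : Q.subgroupOf P = (ψ.comp (inclusion hle)).ker := Subgroup.ext fun g => (h.ker (inclusion hle g)).symm
  obtain ⟨n, hn⟩ := IsPGroup.iff_card.1 (hP.of_surjective _ (ψ.comp (inclusion hle)).rangeRestrict_surjective)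
  have k2 := card_subgroup_dvd_card (ψ.comp (inclusion hle)).range
  rw [nat_card_alternatingGroup, hn] at k2
  rw [relIndex, k1, index_ker, hn]
  exact ((by decide : Nat.Coprime 2 15).pow_left n).dvd_of_dvd_mul_right (by simpa [Nat.factorial] using k2)

theorem eq_of_four {P U : Subgroup G} (hU : IsPGroup 2 U) (hle : U ≤ 𝒩(Q)) (hQ : Q ≤ P) (hP : P ≤ U)
    (h4 : 4 ≤ Q.relIndex P) : P = U := by
  refine eq_of_le_of_card_ge hP ?_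
  rw [← card_mul_relIndex hQ, ← card_mul_relIndex (hQ.trans hP)]
  exact Nat.mul_le_mul_left _ ((Nat.le_of_dvd (by decide) (h.relIndex_dvd hU hle)).trans h4)

theorem conj {t u : G} (ht : t ∈ 𝒩(Q)) (hu : u ∈ 𝒩(Q)) (t1 : t ∉ Q) (u1 : u ∉ Q) (t2 : t * t = 1) (u2 : u * u = 1) :
    ∃ k ∈ 𝒩(Q), k * t * k⁻¹ = u := by
  obtain ⟨i1, i2⟩ := h.inv (r := ⟨t, ht⟩) t1 (t2 ▸ one_mem Q)
  obtain ⟨j1, j2⟩ := h.inv (r := ⟨u, hu⟩) u1 (u2 ▸ one_mem Q)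
  obtain ⟨a, ha, sa⟩ := p5_conj _ i1 i2 (ψ _).2
  obtain ⟨b, hb, sb⟩ := p5_conj _ j1 j2 (ψ _).2
  obtain ⟨k, hk⟩ := h.surj ((⟨b, sb⟩ : alternatingGroup (Fin 5))⁻¹ * ⟨a, sa⟩)
  have k1 : (k : G) * t * (k : G)⁻¹ * u ∈ Q := (h.ker (k * ⟨t, ht⟩ * k⁻¹ * ⟨u, hu⟩)).1 (Subtype.ext (by
    rw [map_mul, map_mul, map_mul, map_inv, hk]
    change b⁻¹ * a * ψ ⟨t, ht⟩ * (b⁻¹ * a)⁻¹ * ψ ⟨u, hu⟩ = 1
    rw [← j1]
    calc _ = b⁻¹ * (a * ψ ⟨t, ht⟩ * a⁻¹) * b * ψ ⟨u, hu⟩ := by group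
      _ = _ := by rw [ha, ← hb]; group))
  have ui := inv_eq_of_mul_eq_one_right u2
  have k2 : (k : G) * t * (k : G)⁻¹ * u * u * ((k : G) * t * (k : G)⁻¹ * u * u) = 1 := by
    rw [mul_assoc _ u u, u2, mul_one, conj_mul, t2, mul_one, mul_inv_cancel]
  have k3 : (k : G) * t * (k : G)⁻¹ = (k : G) * t * (k : G)⁻¹ * u * u := by rw [mul_assoc _ u u, u2, mul_one]
  generalize (k : G) * t * (k : G)⁻¹ * u = c at k1 k2 k3
  obtain ⟨q, hq, e⟩ := (h.card_sq hu u1 (u2 ▸ one_mem Q)).2 c (mem_inf.2 ⟨k1, mem_centralizer_singleton_iff.2 (by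
    rw [eq_inv_of_mul_eq_one_left k2, mul_inv_rev, ui, inv_eq_of_mul_eq_one_right (h.sq k1)])⟩)
  refine ⟨q * k, mul_mem (le_normalizer hq) k.2, ?_⟩
  calc _ = q * ((k : G) * t * (k : G)⁻¹) * q⁻¹ := by group
    _ = (q * q) * (u * q * (u⁻¹ * u) * q⁻¹) := by rw [k3, e, h.comm (conj_mem hu hq) hq]; group
    _ = u := by rw [h.sq hq]; group

/-- the Sylow 2-subgroup of `N(Q)` containing `r` -/
def Tr (ψ : 𝒩(Q) →* alternatingGroup (Fin 5)) (r : 𝒩(Q)) : Subgroup G :=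
  ((centralizer {ψ r}).comap ψ).map (𝒩(Q)).subtype

omit h [Finite G] in
theorem mem_Tr {r g : 𝒩(Q)} : (g : G) ∈ Tr ψ r ↔ ψ g * ψ r = ψ r * ψ g :=
  (mem_map_iff_mem (subtype_injective _)).trans mem_centralizer_singleton_iff

omit [Finite G] in
theorem Tr_two {r : 𝒩(Q)} (h1 : (r : G) ∉ Q) (h2 : (r : G) * r ∈ Q) : IsPGroup 2 (Tr ψ r) := by
  rintro ⟨_, g, hg, rfl⟩
  obtain ⟨i1, i2⟩ := h.inv h1 h2
  have k := (h.ker (g * g)).1 (by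
    rw [map_mul]
    exact Subtype.ext (p5_cent _ i1 i2 (ψ r).2 _ (congrArg Subtype.val (mem_centralizer_singleton_iff.1 hg)) (ψ g).2))
  exact ⟨2, Subtype.ext (by simpa [pow_succ, mul_assoc] using h.sq k)⟩

theorem eq_Tr {T : Subgroup G} (hT : IsPGroup 2 T) (hle : T ≤ 𝒩(Q)) (hQ : Q ≤ T) (h4 : 4 ≤ Q.relIndex T) {g : 𝒩(Q)}
    (hg : (g : G) ∈ T) (g1 : (g : G) ∉ Q) : T = Tr ψ g := by
  have hsq : ∀ g ∈ T, g * g ∈ Q := fun g hg => h.sq_mem (hle hg) (h.ord.two_grp hT hg)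
  refine h.eq_of_four (h.Tr_two g1 (hsq g hg)) (map_subtype_le _) hQ (fun a ha => (mem_Tr (g := ⟨a, hle ha⟩)).2 ?_) h4
  have k1 := (h.ker (⟨a, hle ha⟩ * ⟨a, hle ha⟩)).2 (hsq a ha)
  have k2 := (h.ker (g * g)).2 (hsq g hg)
  have k3 := (h.ker (⟨a, hle ha⟩ * g * (⟨a, hle ha⟩ * g))).2 (hsq _ (mul_mem ha hg))
  simp only [map_mul] at k1 k2 k3
  rw [eq_inv_of_mul_eq_one_left k3, mul_inv_rev, inv_eq_of_mul_eq_one_right k1, inv_eq_of_mul_eq_one_right k2]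

theorem exists_three {T : Subgroup G} (hT : IsPGroup 2 T) (hle : T ≤ 𝒩(Q)) (hQ : Q ≤ T) (h4 : 4 ≤ Q.relIndex T) :
    ∃ y ∈ 𝒩(Q), y ∈ 𝒩(T) ∧ orderOf y = 3 := by
  obtain ⟨r, hr, r1⟩ : ∃ r ∈ T, r ∉ Q := SetLike.not_le_iff_exists.1 fun e => by
    rw [relIndex_eq_one.2 e] at h4
    omega
  obtain ⟨r, rfl⟩ : ∃ r' : 𝒩(Q), (r' : G) = r := ⟨⟨r, hle hr⟩, rfl⟩
  obtain ⟨i1, i2⟩ := h.inv r1 (h.sq_mem r.2 (h.ord.two_grp hT hr))
  obtain ⟨y, y3, y1, hy, sy⟩ := p5_three _ i1 i2 (ψ _).2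
  obtain ⟨y, rfl⟩ : ∃ s' : 𝒩(Q), (ψ s' : Equiv.Perm (Fin 5)) = y :=
    let ⟨s', e⟩ := h.surj ⟨y, sy⟩; ⟨s', congrArg Subtype.val e⟩
  have e1 := h.eq_Tr hT hle hQ h4 hr r1
  have k1 : ((y * r * y⁻¹ : 𝒩(Q)) : G) ∈ T := e1.ge (mem_Tr.2 (by
    rw [map_mul, map_mul, map_inv]
    exact Subtype.ext hy))
  have e2 := h.eq_Tr hT hle hQ h4 k1 fun e => r1 (by simpa [mul_assoc] using conj_mem' y.2 e)
  have k2 : (y : G) ∈ 𝒩(T) := mem_normalizer_fintype fun a ha => by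
    obtain ⟨a, hb, rfl⟩ := e1.le ha
    refine e2.ge ((mem_Tr (g := y * a * y⁻¹)).2 ?_)
    simp only [map_mul, map_inv, conj_mul, mem_centralizer_singleton_iff.1 hb]
  have o3 : orderOf (ψ y) = 3 := (orderOf_coe (ψ y)).symm.trans
    (orderOf_eq_prime (hp := ⟨Nat.prime_three⟩) ((pow_three' _).trans y3) y1)
  exact ⟨y ^ 4, pow_mem y.2 4, pow_mem k2 4, h.ord.ord_three (orderOf_coe y ▸ o3 ▸ orderOf_map_dvd ψ y)⟩

theorem cent_of_conj {t r : G} (ht : t ∈ 𝒩(Q)) (t1 : t ∉ Q) (t2 : t * t ∈ Q) (hr : r ∈ 𝒩(Q)) (rt : r * t = t * r)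
    (hj : ∀ c ∈ Q ⊓ centralizer {t}, ∀ c' ∈ Q ⊓ centralizer {t}, c ≠ 1 → c' ≠ 1 → ∃ k ∈ 𝒩(Q), k * c * k⁻¹ = c') :
    r ∈ 𝒞(Q ⊓ centralizer {t}) := by
  have k1 : Tr ψ ⟨t, ht⟩ ≤ 𝒩(Q ⊓ centralizer {t}) := by
    rintro _ ⟨g, hg, rfl⟩
    refine mem_normalizer_fintype fun c hc => mem_inf.2 ⟨conj_mem g.2 hc.1, mem_centralizer_singleton_iff.2 ?_⟩
    have e1 : t⁻¹ * ((g : G)⁻¹ * t * g) ∈ Q := (h.ker (⟨t, ht⟩⁻¹ * (g⁻¹ * ⟨t, ht⟩ * g))).1 (by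
      simp only [map_mul, map_inv, mul_assoc, ← mem_centralizer_singleton_iff.1 hg, inv_mul_cancel_left, inv_mul_cancel])
    change g * c * (g : G)⁻¹ * t = t * (g * c * (g : G)⁻¹)
    calc _ = g * (c * t * (t⁻¹ * ((g : G)⁻¹ * t * g))) * (g : G)⁻¹ := by group
      _ = _ := by rw [mem_centralizer_singleton_iff.1 hc.2, mul_assoc t, h.comm hc.1 e1]; group
  have k2 : Q ⊓ centralizer {t} ≠ ⊥ := fun e => by
    have := (h.card_sq ht t1 t2).1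
    rw [e, card_bot, eq_comm, card_eq_one] at this
    exact h.ne this
  obtain ⟨c, hc, c1⟩ := (bot_or_exists_ne_one _).resolve_left
    (inf_cent_ne_bot ((elem_isP h.el).to_le inf_le_left) (h.Tr_two (r := ⟨t, ht⟩) t1 t2) k1 k2)
  intro d hd
  by_contra d1
  have d0 : d ≠ 1 := fun e => d1 (by rw [e, one_mul, mul_one])
  obtain ⟨k, hk, rfl⟩ := hj c hc.1 d hd c1 d0
  have k3 : ∀ g : 𝒩(Q), ψ g * ψ (⟨k, hk⟩ * ⟨t, ht⟩ * ⟨k, hk⟩⁻¹) = ψ (⟨k, hk⟩ * ⟨t, ht⟩ * ⟨k, hk⟩⁻¹) * ψ g →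
      k * c * k⁻¹ * g = g * (k * c * k⁻¹) := fun g hg => by
    have := hc.2 _ ((mem_Tr (g := ⟨k, hk⟩⁻¹ * g * ⟨k, hk⟩) (r := ⟨t, ht⟩)).2 (by
      simp only [map_mul, map_inv] at hg ⊢
      calc _ = (ψ ⟨k, hk⟩)⁻¹ * (ψ g * (ψ ⟨k, hk⟩ * ψ ⟨t, ht⟩ * (ψ ⟨k, hk⟩)⁻¹)) * ψ ⟨k, hk⟩ := by group
        _ = _ := by rw [hg]; group))
    change k⁻¹ * g * k * c = c * (k⁻¹ * g * k) at this
    calc _ = k * (c * (k⁻¹ * g * k)) * k⁻¹ := by group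
      _ = _ := by rw [← this]; group
  obtain ⟨i1, i2⟩ := h.inv (r := ⟨t, ht⟩) t1 t2
  obtain ⟨j1, j2⟩ := h.inv (r := ⟨k, hk⟩ * ⟨t, ht⟩ * ⟨k, hk⟩⁻¹) (fun e => t1 (by simpa [mul_assoc] using conj_mem' hk e))
    (by simpa only [coe_mul, coe_inv, conj_mul] using conj_mem hk t2)
  rcases p5_five _ i1 i2 (ψ _).2 _ j1 j2 (ψ _).2 with k4 | ⟨s, s1, s5, s2, ss⟩
  · refine d1 (k3 ⟨r, hr⟩ (Subtype.ext (k4 _ (congrArg Subtype.val (?_ : ψ ⟨r, hr⟩ * ψ ⟨t, ht⟩ = ψ ⟨t, ht⟩ * ψ ⟨r, hr⟩))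
      (ψ _).2)))
    rw [← map_mul, ← map_mul]
    exact congrArg ψ (Subtype.ext rt)
  · obtain ⟨s, rfl⟩ : ∃ s' : 𝒩(Q), (ψ s' : Equiv.Perm (Fin 5)) = s :=
      let ⟨s', e⟩ := h.surj ⟨s, ss⟩; ⟨s', congrArg Subtype.val e⟩
    refine d0 (h.eq_one (x := ⟨t, ht⟩ * s) (by simpa using s5) (by simpa using s2) hd.1 ?_)
    change t * s * _ = _ * (t * s)
    rw [mul_assoc, ← k3 s (Subtype.ext s1), ← mul_assoc, ← mem_centralizer_singleton_iff.1 hd.2, mul_assoc]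

end Lc

end CL.OrdSix
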