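/-
Groups of prime degree with a dihedral normaliser, I: eigenvalue counts in simple modules.
-/
import Cfsg.Agent.Blk.SmPSL

set_option autoImplicit false
set_option linter.unusedSectionVars false
set_option linter.style.haveILetI false

open Finset Module Subgroup CL.Inv.PO CL.Char CL.Blk CL.Blk.Sm CL.Blk.Rk Cfsg MonoidAlgebra
open scoped MatrixGroups

namespace CL.Inv.Tuan

section Lin

variable {k V : Type*} [Field k] [AddCommGroup V] [Module k V]

theorem card_filter_le [DecidableEq k] {s μ : k} {e : ℕ} (he : 0 < e) (hs : IsPrimitiveRoot s e) (hμ : μ ≠ 0) (c : k)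
    (q : ℕ) : ((range (q * e)).filter fun j => s ^ j * μ = c).card ≤ q := by
  refine (card_le_card_of_injOn (t := range q) (· / e) (fun j hj => ?_) fun i hi j hj h => ?_).trans_eq (card_range q)
  · exact mem_coe.2 (mem_range.2 (Nat.div_lt_of_lt_mul (mul_comm q e ▸ mem_range.1 (mem_filter.1 hj).1)))
  · have h1 := mul_right_cancel₀ hμ ((mem_filter.1 hi).2.trans (mem_filter.1 hj).2.symm)
    have h2 : ∀ n, s ^ (n % e) = s ^ n := fun n => by
      conv_rhs => rw [← Nat.mod_add_div n e, pow_add, pow_mul, hs.pow_eq_one, one_pow, mul_one]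
    have h3 := hs.pow_inj (Nat.mod_lt i he) (Nat.mod_lt j he) (by rw [h2, h2, h1])
    rw [← Nat.mod_add_div i e, ← Nat.mod_add_div j e, h3, show i / e = j / e from h]

/-- the number of `j < a` with `s ^ j * μ ∈ {c, d}` -/
def cnt [DecidableEq k] (s μ c d : k) (a : ℕ) : ℕ :=
  ((range a).filter fun j => s ^ j * μ = c).card + ((range a).filter fun j => s ^ j * μ = d).card

theorem cnt_mono [DecidableEq k] (s μ c d : k) {a b : ℕ} (h : a ≤ b) : cnt s μ c d a ≤ cnt s μ c d b :=
  add_le_add (card_le_card (filter_subset_filter _ (range_mono h))) (card_le_card (filter_subset_filter _ (range_mono h)))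

theorem cnt_succ_le [DecidableEq k] (s μ : k) {c d : k} (h : c ≠ d) (a : ℕ) :
    cnt s μ c d (a + 1) ≤ cnt s μ c d a + 1 := by
  simp only [cnt, range_add_one, filter_insert]
  split_ifs with h1 h2 h2
  · exact absurd (h1.symm.trans h2) h
  · have := card_insert_le a ((range a).filter fun j => s ^ j * μ = c); omega
  · have := card_insert_le a ((range a).filter fun j => s ^ j * μ = d); omega
  · omega

theorem cnt_succ_eq [DecidableEq k] {s μ c d : k} {a : ℕ} (h1 : s ^ a * μ ≠ c) (h2 : s ^ a * μ ≠ d) :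
    cnt s μ c d (a + 1) = cnt s μ c d a := by
  simp only [cnt, range_add_one, filter_insert, if_neg h1, if_neg h2]

theorem cnt_le [DecidableEq k] {s μ : k} {e : ℕ} (he : 0 < e) (hs : IsPrimitiveRoot s e) (hμ : μ ≠ 0) (c d : k)
    (q : ℕ) : cnt s μ c d (q * e) ≤ 2 * q := by
  have := card_filter_le he hs hμ c q
  have := card_filter_le he hs hμ d q
  unfold cnt; omega

theorem sum_pow_smul_apply {ν : End k V} {m : k} {v : V} (h : ν v = m • v) (c : k) (e : ℕ) :
    (∑ i ∈ range e, (c • ν) ^ i) v = (∑ i ∈ range e, (c * m) ^ i) • v := by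
  rw [LinearMap.sum_apply, sum_smul]
  exact sum_congr rfl fun i _ => pow_apply_of_eigen (by rw [LinearMap.smul_apply, h, smul_smul]) i

theorem geom_eq_zero {z : k} {e : ℕ} (h : z ^ e = 1) (h1 : z ≠ 1) : ∑ i ∈ range e, z ^ i = 0 :=
  (mul_eq_zero.1 (by rw [geom_sum_mul, h, sub_self])).resolve_right (sub_ne_zero.2 h1)

theorem rk_eigE_le [FiniteDimensional k V] [DecidableEq k] {κ : Type*} [Fintype κ] (b : Basis κ k V) {ν : End k V}
    {m : κ → k} (h : ∀ i, ν (b i) = m i • b i) {e : ℕ} {c : k} (hc : ∀ i, (c * m i) ^ e = 1) :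
    rk (eigE e c ν) ≤ (univ.filter fun i => c * m i = 1).card := by
  classical
  have e1 := finrank_span_finset_le_card (R := k) ((univ.filter fun i => c * m i = 1).image b)
  refine le_trans (le_trans (Submodule.finrank_mono ?_) e1) card_image_le
  rw [LinearMap.range_eq_map, ← b.span_eq, Submodule.map_span_le]
  rintro _ ⟨i, rfl⟩
  rw [eigE, LinearMap.smul_apply, sum_pow_smul_apply (h i)]
  by_cases h1 : c * m i = 1
  · exact Submodule.smul_mem _ _ (Submodule.smul_mem _ _ (Submodule.subset_span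
      (mem_coe.2 (mem_image_of_mem _ (mem_filter.2 ⟨mem_univ _, h1⟩)))))
  · rw [geom_eq_zero (hc i) h1, zero_smul, smul_zero]; exact zero_mem _

theorem two_mul_rk_le [FiniteDimensional k V] [DecidableEq k] {Y ν ν' : End k V} {ι : Type} [Fintype ι]
    [DecidableEq ι] {a : ι → ℕ} {g : ι → V} {φ : ι → V →ₗ[k] k} (J : Jor Y ⊤ a g φ) {s c : k} {e : ℕ} {μ : ι → k}
    (h : ν * Y = s • (Y * ν)) (hg : ∀ i, ν (g i) = μ i • g i) (hν : ν' * ν = 1) (he : 0 < e) (hs : s ^ e = 1)
    (hμ : ∀ i, μ i ^ e = 1) (hc : c ^ e = 1) (hr : rk (eigE e c ν') = rk (eigE e c ν)) :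
    2 * rk (eigE e c ν) ≤ ∑ i, cnt s (μ i) c⁻¹ c (a i) := by
  have h0 : ∀ {z : k}, z ^ e = 1 → z ≠ 0 := fun h h' => by rw [h', zero_pow he.ne'] at h; exact zero_ne_one h
  have hm : ∀ q : Σ i, Fin (a i), (s ^ (q.2 : ℕ) * μ q.1) ^ e = 1 := fun q => by
    rw [mul_pow, hμ, ← pow_mul, mul_comm _ e, pow_mul, hs, one_pow, one_mul]
  have h1 : ∀ q : Σ i, Fin (a i), ν (J.basis q) = (s ^ (q.2 : ℕ) * μ q.1) • J.basis q := fun q => by
    rw [J.basis_apply, apply_pow_of_comm h, hg, map_smul, smul_smul]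
  have h2 : ∀ q : Σ i, Fin (a i), ν' (J.basis q) = (s ^ (q.2 : ℕ) * μ q.1)⁻¹ • J.basis q := fun q => by
    rw [eq_inv_smul_iff₀ (h0 (hm q)), ← map_smul, ← h1, ← End.mul_apply, hν, End.one_apply]
  have e1 := rk_eigE_le J.basis h1 (e := e) (c := c) fun q => by rw [mul_pow, hc, hm, one_mul]
  have e2 := rk_eigE_le J.basis h2 (e := e) (c := c) fun q => by rw [mul_pow, hc, inv_pow, hm, one_mul, inv_one]
  have key : ∀ d : k, (univ.filter fun q : Σ i, Fin (a i) => s ^ (q.2 : ℕ) * μ q.1 = d).card =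
      ∑ i, ((range (a i)).filter fun j => s ^ j * μ i = d).card := fun d => by
    simp only [card_filter]
    rw [Fintype.sum_sigma]
    exact sum_congr rfl fun i _ => Fin.sum_univ_eq_sum_range (fun j => if s ^ j * μ i = d then 1 else 0) (a i)
  simp only [cnt, sum_add_distrib, ← key]
  rw [filter_congr fun q _ => (mul_eq_one_iff_inv_eq₀ (h0 hc)).trans eq_comm] at e1
  rw [filter_congr fun q _ => (mul_inv_eq_one₀ (h0 (hm q))).trans eq_comm] at e2
  omega

variable {G : Type*} [Group G]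

/-- the annihilator of a simple module with a symmetric trace is invariant under inversion -/
theorem sum_inv_eq_zero [FiniteDimensional k V] (σ : Representation k G V) (hσ : Function.Surjective σ.asAlgebraHom)
    (hτ : ∀ g, σ.character g⁻¹ = σ.character g) {κ : Type*} (S : Finset κ) (c : κ → k) (g : κ → G)
    (h : ∑ i ∈ S, c i • σ (g i) = 0) : ∑ i ∈ S, c i • σ (g i)⁻¹ = 0 := by
  have h1 : ∀ z : G, LinearMap.trace k V ((∑ i ∈ S, c i • σ (g i)⁻¹) * σ z) = 0 := fun z => by
    have := congrArg (fun f => LinearMap.trace k V (σ z⁻¹ * f)) h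
    simp only [mul_sum, mul_smul_comm, map_sum, map_smul, mul_zero, map_zero, ← map_mul] at this
    rw [← this]
    simp only [sum_mul, smul_mul_assoc, map_sum, map_smul, ← map_mul]
    refine sum_congr rfl fun i _ => ?_
    have := hτ (z⁻¹ * g i)
    rw [mul_inv_rev, inv_inv] at this
    exact congrArg _ this
  have h2 : ∀ f, LinearMap.trace k V ((∑ i ∈ S, c i • σ (g i)⁻¹) * f) = 0 := fun f => by
    obtain ⟨a, rfl⟩ := hσ f
    induction a using MonoidAlgebra.induction_on with
    | of z => simpa using h1 z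
    | add a b ha hb => rw [map_add, mul_add, map_add, ha, hb, add_zero]
    | smul r a ha => rw [map_smul, mul_smul_comm, map_smul, ha, smul_zero]
  ext v
  refine (Module.forall_dual_apply_eq_zero_iff k _).1 fun ψ => ?_
  have := h2 (ψ.smulRight v)
  rwa [LinearMap.trace_mul_comm, show ψ.smulRight v * (∑ i ∈ S, c i • σ (g i)⁻¹) =
    (ψ ∘ₗ ∑ i ∈ S, c i • σ (g i)⁻¹).smulRight v from rfl, LinearMap.trace_smulRight] at this

end Lin

section Mod

variable {k V : Type*} [Field k] [IsAlgClosed k] [AddCommGroup V] [Module k V] [FiniteDimensional k V]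
variable {G : Type*} [Group G] [Finite G] {p : ℕ} [hp : Fact p.Prime] [CharP k p] {x : G} {C : Subgroup G}
  (K : Ctx p x C) (σ : Representation k G V)

theorem schur_of_surj (hσ : Function.Surjective σ.asAlgebraHom) (φ : End k V) (h : ∀ g, Commute (σ g) φ) :
    ∃ c : k, φ = c • 1 := by
  have h1 : φ ∈ Subalgebra.center k (End k V) := Subalgebra.mem_center_iff.2 fun f => by
    obtain ⟨a, rfl⟩ := hσ f
    induction a using MonoidAlgebra.induction_on with
    | of z => simpa using (h z).eq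
    | add a b ha hb => rw [map_add, mul_add, add_mul, ha, hb]
    | smul r a ha => rw [map_smul, mul_smul_comm, smul_mul_assoc, ha]
  rw [Algebra.IsCentral.center_eq_bot, Algebra.mem_bot] at h1
  obtain ⟨c, rfl⟩ := h1
  exact ⟨c, Algebra.algebraMap_eq_smul_one c⟩

/-- the eigenvalue bound in a simple module -/
theorem rk_le {y w : G} {e t : ℕ} (hH : K.H = zpowers y) (hy : y ∈ Nz x) (he : orderOf y = e)
    (ha : orderOf (K.a ⟨y, hy⟩) = e) (hpt : p = t * e + 1) (hw : w⁻¹ * y * w = y⁻¹)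
    (hσ : Function.Surjective σ.asAlgebraHom) (hd : finrank k V ≤ p + 1)
    (hτ : finrank k V = p + 1 → ∀ g, σ.character g⁻¹ = σ.character g) {c : k} (hc : c ^ e = 1) (hc2 : c ^ 2 ≠ 1) :
    rk (eigE e c (σ y)) ≤ t ∧ ∀ q, finrank k V ≤ q * e + 1 → finrank k V < p → rk (eigE e c (σ y)) ≤ q := by
  classical
  have he0 : 0 < e := he ▸ orderOf_pos y
  have hyH : y ∈ K.H := hH ▸ mem_zpowers y
  have hek : (e : k) ≠ 0 := fun h => K.H_card (by
    rw [hH, Nat.card_zpowers, he]; exact (CharP.cast_eq_zero_iff k p e).1 h)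
  obtain ⟨z, hz, hz'⟩ := exists_log K σ
  set T := σ x - 1 with hT
  set s := al K k ⟨y, hy⟩ with hs
  have hsp : IsPrimitiveRoot s e := by
    rw [hs, al_eq, ← ha, ← orderOf_units]
    exact (IsPrimitiveRoot.orderOf _).map_of_injective (ZMod.castHom (dvd_refl p) k).injective
  have hTp : T ^ p = 0 := sub_one_pow_p K σ
  have hTz : Commute T z := hz.sub_left (Commute.one_left _)
  have hTu : Commute T (1 + T * z) := (Commute.one_right _).add_right ((Commute.refl _).mul_right hTz)
  have hu : IsUnit (1 + T * z) := (hTz.isNilpotent_mul_right ⟨p, hTp⟩).isUnit_one_add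
  set Y := T * (1 + T * z) with hY
  have hYp : Y ^ p = 0 := by rw [hY, hTu.mul_pow, hTp, zero_mul]
  have hp1 : p - 1 + 1 = p := Nat.sub_add_cancel hp.out.one_le
  have hYT : Y ^ (p - 1) = ∑ i ∈ range p, σ x ^ i := by
    rw [← sub_one_pow_pred_eq_sum k p, ← hT, hY, hTu.mul_pow]
    have : ∀ n, T ^ (p - 1) * (1 + T * z) ^ n = T ^ (p - 1) := fun n => by
      induction n with
      | zero => simp
      | succ n ih => rw [pow_succ', ← mul_assoc, mul_add, mul_one, ← mul_assoc, ← pow_succ, hp1, hTp, zero_mul,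
          add_zero, ih]
    exact this _
  have hfix : ∀ v, Y v = 0 → σ x v = v := fun v hv => by
    rw [hY, hTu.eq, End.mul_apply] at hv
    exact sub_eq_zero.1 ((LinearMap.map_eq_zero_iff _ ((End.isUnit_iff _).1 hu).1).1 hv)
  have hνY : σ y * Y = s • (Y * σ y) := by
    rw [← smul_mul_assoc, ← hz' ⟨y, hyH⟩, mul_assoc, ← map_mul, inv_mul_cancel, map_one, mul_one]
  have hν : σ y ^ e = 1 := by rw [← map_pow, ← he, pow_orderOf_eq_one, map_one]
  obtain ⟨ι, _, _, a, g, φ, J, hμ⟩ := exists_jor_eigen ⟨p, hYp⟩ hek hν (al_ne_zero K _) hνY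
  choose μ hμ using hμ
  have hg0 : ∀ i, g i ≠ 0 := fun i => by simpa using J.ne_zero i (J.pos i)
  have hμe : ∀ i, μ i ^ e = 1 := fun i => by
    have := pow_apply_of_eigen (hμ i) e
    rw [hν, End.one_apply] at this
    exact smul_left_injective k (hg0 i) (this.symm.trans (one_smul k _).symm)
  have h0 : ∀ {z : k}, z ^ e = 1 → z ≠ 0 := fun h h' => by rw [h', zero_pow he0.ne'] at h; exact zero_ne_one h
  have hcc : c⁻¹ ≠ c := fun h => hc2 (by rw [sq]; nth_rw 1 [← h]; exact inv_mul_cancel₀ (h0 hc))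
  have hinv : σ y⁻¹ * σ y = 1 := by rw [← map_mul, inv_mul_cancel, map_one]
  have hr := two_mul_rk_le J hνY hμ hinv he0 hsp.pow_eq_one hμe hc (by
    have := eigE_conj e c (σ y) (σ.asGroupHom w⁻¹)
    rw [← rk_conj (eigE e c (σ y)) (σ.asGroupHom w⁻¹), ← this, ← hw, map_mul, map_mul, ← map_inv, inv_inv]
    rfl)
  have hle : ∀ i, a i ≤ p := fun i => not_lt.1 fun h => J.ne_zero i h (by rw [hYp]; rfl)
  have hsoc : ∀ i, Y ((Y ^ (a i - 1)) (g i)) = 0 := fun i => by
    rw [← End.mul_apply, ← pow_succ', Nat.sub_add_cancel (J.pos i), J.kill]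
  have hkill : ∀ i, a i < p → ∀ v, φ i ((∑ i ∈ range p, σ x ^ i) v) = 0 := fun i hi v => by
    rw [← hYT, show p - 1 = a i + (p - 1 - a i) by omega, pow_add, End.mul_apply, J.killφ i _ trivial]
  have huniq : ∀ i i', a i < p → a i' < p → i = i' := fun i i' hi hi' => by
    by_contra hne
    have d1 : ∀ j, φ j ((Y ^ (a j - 1)) (g j)) = 1 := fun j => by
      rw [J.dual, if_pos ⟨rfl, Nat.sub_add_cancel (J.pos j)⟩]
    have h1 := fixed_mem_span_sup σ (schur_of_surj σ hσ) K.hx K.hP (hfix _ (hsoc i))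
      (fun v hv => zero_ne_one ((hkill i hi v).symm.trans (hv ▸ d1 i))) (hfix _ (hsoc i'))
    refine zero_ne_one (Eq.trans (Eq.symm ?_) (d1 i'))
    refine (sup_le (Submodule.span_le.2 ?_) ?_ : _ ≤ LinearMap.ker (φ i')) h1
    · rintro _ ⟨n, hn, rfl⟩
      have h2 : ∀ h ∈ zpowers y, ∃ d : k, σ h ((Y ^ (a i - 1)) (g i)) = d • (Y ^ (a i - 1)) (g i) := fun h hh => by
        obtain ⟨n, -, rfl⟩ := mem_image.1 (mem_zpowers_iff_mem_range_orderOf.1 hh)
        exact ⟨_, by
          rw [map_pow]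
          exact pow_apply_of_eigen (by rw [apply_pow_of_comm hνY, hμ, map_smul, smul_smul]) _⟩
      obtain ⟨d, hd⟩ := h2 _ (hH ▸ K.π_mem n hn)
      have h3 := apply_of_mem_zpowers σ (K.π_spec n hn) (hfix _ (hsoc i))
      change φ i' (σ n _) = 0
      rw [← mul_inv_cancel_left (K.π n) n, map_mul, End.mul_apply, h3, hd, map_smul, J.dual,
        if_neg fun h => hne h.1.symm, smul_zero]
    · rintro _ ⟨v, rfl⟩
      exact hkill i' hi' v
  have hsum := J.finrank_eq
  have hone : ∀ q, (∀ i i' : ι, i = i') → finrank k V ≤ q * e + 1 → rk (eigE e c (σ y)) ≤ q := fun q h hq => by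
    have : Subsingleton ι := ⟨h⟩
    rcases isEmpty_or_nonempty ι with hι | ⟨⟨i⟩⟩
    · rw [Fintype.sum_empty] at hr; omega
    rw [Fintype.sum_subsingleton _ i] at hr hsum
    have := cnt_mono s (μ i) c⁻¹ c (hsum ▸ hq)
    have := cnt_succ_le s (μ i) hcc (q * e)
    have := cnt_le he0 hsp (h0 (hμe i)) c⁻¹ c q
    omega
  have hai : ∀ i, a i ≤ finrank k V := fun i => hsum ▸ single_le_sum (fun _ _ => Nat.zero_le _) (mem_univ i)
  refine ⟨?_, fun q hq hlt => hone q (fun i i' => huniq i i' ((hai i).trans_lt hlt) ((hai i').trans_lt hlt)) hq⟩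
  by_cases hι : ∀ i i' : ι, i = i'
  · refine hone t hι ?_
    have : Subsingleton ι := ⟨hι⟩
    rcases isEmpty_or_nonempty ι with hι | ⟨⟨i⟩⟩
    · rw [Fintype.sum_empty] at hsum; omega
    · rw [Fintype.sum_subsingleton _ i] at hsum
      exact hsum ▸ hpt ▸ hle i
  obtain ⟨i, i', hne, hi⟩ : ∃ i i' : ι, i ≠ i' ∧ a i = p := by
    push Not at hι
    obtain ⟨i, i', hne⟩ := hι
    by_cases hi : a i < p
    · exact ⟨i', i, hne.symm, le_antisymm (hle _) (not_lt.1 fun h => hne (huniq _ _ hi h))⟩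
    · exact ⟨i, i', hne, le_antisymm (hle _) (not_lt.1 hi)⟩
  have hs2 := add_sum_erase univ a (mem_univ i)
  have hs3 := add_sum_erase (univ.erase i) a (mem_erase.2 ⟨hne.symm, mem_univ i'⟩)
  have hpos := J.pos i'
  have hall : (univ.erase i).erase i' = ∅ := eq_empty_of_forall_notMem fun j hj => by
    have := single_le_sum (f := a) (fun _ _ => Nat.zero_le _) hj
    have := J.pos j
    omega
  have hi' : a i' = 1 := by rw [hall, sum_empty] at hs3; omega
  have hst : s ^ (t * e) = 1 := by rw [mul_comm, pow_mul, hsp.pow_eq_one, one_pow]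
  have hpe : p - 1 = t * e := by omega
  -- the socle of the free block
  have hm : μ i ^ 2 = 1 := by
    by_contra hm
    have hz0 : σ y ((Y ^ (p - 1)) (g i)) = μ i • (Y ^ (p - 1)) (g i) := by
      rw [apply_pow_of_comm hνY, hμ, hpe, hst, one_smul, map_smul]
    have h1 : Y ^ (p - 1) * ∑ l ∈ range e, (μ i • σ y) ^ l = 0 := by
      have hc : Commute (σ y) (Y ^ (p - 1)) := LinearMap.ext fun v => by
        rw [End.mul_apply, apply_pow_of_comm hνY, hpe, hst, one_smul, End.mul_apply]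
      rw [← (Commute.sum_left _ _ _ fun l _ => (hc.smul_left _).pow_left l).eq]
      refine J.ext fun j l hl => ?_
      rw [End.mul_apply, pow_apply_pow_apply, LinearMap.zero_apply]
      by_cases h : a j ≤ p - 1 + l
      · rw [J.kill' j h, map_zero]
      · have hj : j = i := by
          by_contra hj
          have : j = i' := by
            by_contra hj'
            exact notMem_empty j (hall ▸ mem_erase.2 ⟨hj', mem_erase.2 ⟨hj, mem_univ _⟩⟩)
          subst this
          have := hp.out.two_le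
          omega
        have hl0 : l = 0 := by have := hle j; omega
        rw [hj, hl0, add_zero, sum_pow_smul_apply hz0,
          geom_eq_zero (by rw [mul_pow, hμe, one_mul]) (by rwa [← sq]), zero_smul]
    have h2 := sum_inv_eq_zero σ hσ (hτ (by omega)) (range p ×ˢ range e) (fun q => μ i ^ q.2)
      (fun q => x ^ q.1 * y ^ q.2) (by
        rw [← h1, hYT, sum_mul_sum, sum_product]
        simp only [map_mul, map_pow, smul_pow, mul_smul_comm])
    have h3 : (∑ l ∈ range e, (μ i • σ y⁻¹) ^ l) * ∑ u ∈ range p, σ x⁻¹ ^ u = 0 := by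
      rw [← h2, sum_mul_sum, sum_product_right]
      simp only [mul_inv_rev, ← inv_pow, map_mul, map_pow, smul_pow, smul_mul_assoc]
    have h4 : (∑ u ∈ range p, σ x⁻¹ ^ u) * σ x ^ (p - 1) = Y ^ (p - 1) := by
      rw [hYT, sum_mul, ← sum_range_reflect]
      refine sum_congr rfl fun u hu => ?_
      rw [← map_pow, ← map_pow, ← map_pow, ← map_mul, inv_pow, inv_mul_eq_iff_eq_mul.2]
      rw [← pow_add]; congr 1; have := mem_range.1 hu; omega
    have h5 : σ y⁻¹ ((Y ^ (p - 1)) (g i)) = (μ i)⁻¹ • (Y ^ (p - 1)) (g i) := by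
      rw [eq_inv_smul_iff₀ (h0 (hμe i)), ← map_smul, ← hz0, ← End.mul_apply, hinv, End.one_apply]
    have h6 := sum_pow_smul_apply h5 (μ i) e
    rw [← End.mul_apply, mul_inv_cancel₀ (h0 (hμe i))] at h6
    nth_rw 1 [← h4] at h6
    rw [← mul_assoc, h3, zero_mul] at h6
    simp only [one_pow, sum_const, card_range, nsmul_eq_mul, mul_one, LinearMap.zero_apply] at h6
    exact J.ne_zero i (by omega) ((smul_eq_zero.1 h6.symm).resolve_left hek)
  rw [← add_sum_erase univ _ (mem_univ i), ← add_sum_erase (univ.erase i) _ (mem_erase.2 ⟨hne.symm, mem_univ i'⟩),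
    hall, sum_empty, hi, hi'] at hr
  have b1 := cnt_succ_le s (μ i') hcc 0
  have b2 := cnt_le he0 hsp (h0 (hμe i)) c⁻¹ c t
  have b3 : cnt s (μ i) c⁻¹ c (t * e + 1) = _ := cnt_succ_eq
    (by rw [hst, one_mul]; intro h; rw [h, inv_pow, inv_eq_one] at hm; exact hc2 hm)
    (by rw [hst, one_mul]; intro h; exact hc2 (h ▸ hm))
  have b4 : cnt s (μ i') c⁻¹ c 0 = 0 := rfl
  rw [← hpt] at b3
  simp only [zero_add] at b1
  omega

end Mod

end CL.Inv.Tuan
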