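/-
Groups of prime degree with a dihedral normaliser, II: a real character of degree `p + 1` gives `PSL(2, p)`.
-/
import Cfsg.Agent.Inv.Tuan1
import Cfsg.Agent.Inv.SymSq
import Cfsg.Agent.Char.Exceptional

set_option autoImplicit false
set_option linter.unusedSectionVars false
set_option linter.style.haveILetI false

open Finset Module Subgroup CL.Inv.PO CL.Char CL.Blk CL.Blk.Sm CL.Blk.Rk Cfsg MonoidAlgebra
open scoped MatrixGroups ComplexConjugate

namespace CL.Inv.Tuan

variable {G : Type*} [Group G] [Finite G] {p : ℕ} [hp : Fact p.Prime] {x : G} {C : Subgroup G}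

theorem character_inv {M : Ideal AlgInt} (hM : IsPModular p M) (j : Sim M G)
    (h : ∀ g, IsPRegular p g → j.ibr p g⁻¹ = j.ibr p g) (g : G) : j.rep.character g⁻¹ = j.rep.character g := by
  have := charP_resField hM
  obtain ⟨u, v, rfl, huv, ⟨n, hn⟩, hv⟩ := exists_isPPart hp.out g
  have hu : u ^ p ^ n = 1 := hn ▸ pow_orderOf_eq_one u
  rw [huv.eq, mul_inv_rev, ← huv.eq, character_mul_of_pow_eq_one hp.out _ huv hu,
    character_mul_of_pow_eq_one hp.out _ huv.inv_inv (n := n) (by rw [inv_pow, hu, inv_one]),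
    ← (red_br hM _ hv).2, ← (red_br hM _ (show IsPRegular p v⁻¹ by rwa [IsPRegular, orderOf_inv])).2]
  exact congrArg _ (h v hv)

theorem arith_dec {ι : Type*} (S : Finset ι) (D d r : ι → ℕ) {n t : ℕ} (hD : ∀ j ∈ S, D j ≠ 0)
    (hs : ∑ j ∈ S, D j * d j ≤ 2 * n) (hn : 0 < n) (h1 : ∀ j ∈ S, n ≤ d j) (h2 : ∀ j ∈ S, r j ≤ 2 * t)
    (h3 : ∀ j ∈ S, d j ≤ n → r j ≤ t) : ∑ j ∈ S, r j * D j ≤ 2 * t := by
  classical
  have a1 : (∑ j ∈ S, D j) * n ≤ ∑ j ∈ S, D j * d j := by
    rw [sum_mul]; exact sum_le_sum fun j hj => Nat.mul_le_mul_left _ (h1 j hj)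
  have a2 : ∑ j ∈ S, D j ≤ 2 := Nat.le_of_mul_le_mul_right (a1.trans hs) hn
  rcases a2.lt_or_eq with a3 | a3
  · calc _ ≤ ∑ j ∈ S, 2 * t * D j := sum_le_sum fun j hj => Nat.mul_le_mul_right _ (h2 j hj)
      _ ≤ 2 * t * 1 := by rw [← mul_sum]; exact Nat.mul_le_mul_left _ (by omega)
      _ = _ := mul_one _
  · have a4 : ∀ j ∈ S, d j ≤ n := fun j hj => by
      by_contra hc
      have : (∑ j ∈ S, D j) * n < ∑ j ∈ S, D j * d j := by
        rw [sum_mul]
        exact sum_lt_sum (fun j hj => Nat.mul_le_mul_left _ (h1 j hj))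
          ⟨j, hj, Nat.mul_lt_mul_of_pos_left (not_le.1 hc) (Nat.pos_of_ne_zero (hD j hj))⟩
      rw [a3] at this; omega
    calc _ ≤ ∑ j ∈ S, t * D j := sum_le_sum fun j hj => Nat.mul_le_mul_right _ (h3 j hj (a4 j hj))
      _ = _ := by rw [← mul_sum, a3, mul_comm]

theorem psl_of_chi [IsSimpleGroup G] (K : Ctx p x C) (hn : ¬ (zpowers x).Normal) {y w : G} {e t : ℕ}
    (hH : K.H = zpowers y) (hy : y ∈ Nz x) (he : orderOf y = e) (ha : orderOf (K.a ⟨y, hy⟩) = e) (hf : K.f = e)
    (hpt : p = 2 * t * e + 1) (hw : w⁻¹ * y * w = y⁻¹) {χ : G → ℂ} (hχ : IsCharacter G χ)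
    (hd : charDegree χ = p + 1) (hr : ∀ g, χ g⁻¹ = χ g) {c : ℂ} (hc : c ^ e = 1) (hc2 : c ^ 2 ≠ 1)
    (hv : ∀ i, 0 < i → i < e → χ (y ^ i) = c ^ i + c⁻¹ ^ i) : Nonempty (G ≃* PSL(2, ZMod p)) := by
  classical
  obtain ⟨M, hM⟩ := exists_isPModular' hp.out
  have := charP_resField hM
  have he0 : 0 < e := he ▸ orderOf_pos y
  have he3 : 3 ≤ e := by
    by_contra h
    have : e = 1 ∨ e = 2 := by omega
    rcases this with rfl | rfl
    · rw [pow_one] at hc; exact hc2 (by rw [hc, one_pow])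
    · exact hc2 hc
  have ht0 : 0 < t := Nat.pos_of_ne_zero fun h => by simp [h] at hpt; exact hp.out.ne_one hpt
  have hte : 3 ≤ t * e := he3.trans (Nat.le_mul_of_pos_left _ ht0)
  have hpt' : p = 2 * (t * e) + 1 := by rw [hpt, mul_assoc]
  have key : ∃ φ : G →* PGL(2, resField M), φ x ≠ 1 := by
    by_contra hno
    have hreg : IsPRegular p y := fun h => K.H_card (by rwa [hH, Nat.card_zpowers])
    have hcm : c ∈ Polynomial.nthRootsFinset (orderOf y) (1 : ℂ) :=
      (Polynomial.mem_nthRootsFinset (orderOf_pos y) 1).2 (he ▸ hc)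
    have hcv : c ∈ valRing M := mem_valRing_of_pow_eq_one he0.ne' hc
    have hek : (e : resField M) ≠ 0 := fun h => hreg (he ▸ (CharP.cast_eq_zero_iff _ p e).1 h)
    have hc' : red M c ^ e = 1 := by rw [← red_pow hcv, hc, red_one]
    have hg : ∑ i ∈ range e, (c ^ 2) ^ i = 0 := geom_eq_zero (by rw [← pow_mul, mul_comm, pow_mul, hc, one_pow]) hc2
    have hc2' : red M c ^ 2 ≠ 1 := fun h => hek (by
      have := congrArg (red M) hg
      rw [red_sum _ _ fun i _ => pow_mem (pow_mem hcv _) _, red_zero] at this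
      simpa [red_pow (pow_mem hcv _), red_pow hcv, h] using this)
    have E := evalFun_idem_eq_sum hχ (eigE_mem_OG hM hreg hcm) (isIdempotentElem_eigE_single y hcm)
    rw [redG_eigE hM hreg hcm, he] at E
    simp only [map_eigE, ← Sim.rep_apply] at E
    have L : evalFun χ (eigE e c (single y (1 : ℂ))) = ((2 * t + 1 : ℕ) : ℂ) := by
      have hc0 : c ≠ 0 := fun h => by rw [h, zero_pow he0.ne'] at hc; exact zero_ne_one hc
      simp only [eigE, map_smul, map_sum, smul_pow, single_pow, evalFun_single, one_pow, smul_eq_mul, one_mul]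
      have : ∑ i ∈ range e, c ^ i * χ (y ^ i) = ∑ i ∈ range e, ((c ^ 2) ^ i + 1 + if i = 0 then (p - 1 : ℂ) else 0) :=
        sum_congr rfl fun i hi => by
          by_cases h0 : i = 0
          · simp only [h0, pow_zero, ← hχ.cast_charDegree, hd, if_true]; push_cast; ring
          · rw [hv i (Nat.pos_of_ne_zero h0) (mem_range.1 hi), if_neg h0, mul_add, ← mul_pow, ← mul_pow,
              mul_inv_cancel₀ hc0, one_pow, sq, add_zero]
      rw [this, sum_add_distrib, sum_add_distrib, hg, sum_ite_eq', if_pos (mem_range.2 he0), hpt]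
      have : (e : ℂ) ≠ 0 := Nat.cast_ne_zero.2 he0.ne'
      simp only [sum_const, card_range, nsmul_eq_mul, mul_one]
      push_cast
      field_simp
      ring
    rw [L] at E
    have E' : 2 * t + 1 = ∑ j : Sim M G, rk (eigE e (red M c) (j.rep y)) * dec χ j := by exact_mod_cast E
    have hdeg := charDegree_eq_sum_dec hM hχ
    let S := univ.filter fun j : Sim M G => dec χ j ≠ 0 ∧ j.rep x - 1 ≠ 0
    have hS : ∑ j : Sim M G, rk (eigE e (red M c) (j.rep y)) * dec χ j =
        ∑ j ∈ S, rk (eigE e (red M c) (j.rep y)) * dec χ j := (sum_subset (subset_univ _) fun j _ hj => by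
      by_cases h1 : dec χ j = 0
      · rw [h1, mul_zero]
      have h2 : x ∈ MonoidHom.ker j.rep := sub_eq_zero.1 (by simpa [S, h1] using hj)
      have h3 : j.rep y = 1 := by
        rcases (MonoidHom.normal_ker j.rep).eq_bot_or_eq_top with h | h
        · exact absurd (mem_bot.1 (h ▸ h2)) K.x_ne_one
        · exact (h ▸ mem_top y : y ∈ MonoidHom.ker j.rep)
      have h4 : eigE e (red M c) (j.rep y) = 0 := LinearMap.ext fun v => by
        rw [eigE, LinearMap.smul_apply, sum_pow_smul_apply (m := 1) (by rw [h3, one_smul]; rfl), mul_one,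
          geom_eq_zero hc' fun h => hc2' (by rw [h, one_pow]), zero_smul, smul_zero, LinearMap.zero_apply]
      rw [h4, rk_zero, zero_mul]).symm
    have hR : ∀ j ∈ S, _ := fun j hj => rk_le K j.rep hH hy he ha hpt hw
      (j.asAlgebraHom_rep ▸ j.alg_surjective)
      (by rw [finrank_fin_fun, ← hd]; exact dim_le_of_dec hM hχ (mem_filter.1 hj).2.1)
      (fun h => character_inv hM j fun g hg => by
        rw [finrank_fin_fun] at h
        have h0 := add_sum_erase univ (fun j : Sim M G => dec χ j * j.dim) (mem_univ j)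
        have h1 := Nat.le_mul_of_pos_left j.dim (Nat.pos_of_ne_zero (mem_filter.1 hj).2.1)
        have h2 : dec χ j = 1 := Nat.eq_of_mul_eq_mul_right j.dim_pos (by omega)
        have h3 : ∀ i, i ≠ j → dec χ i = 0 := fun i hi => by
          have := single_le_sum (f := fun j : Sim M G => dec χ j * j.dim) (fun _ _ => Nat.zero_le _)
            (mem_erase.2 ⟨hi, mem_univ i⟩)
          exact (mul_eq_zero.1 (show dec χ i * i.dim = 0 by omega)).resolve_right i.dim_pos.ne'
        have h4 := pReg_eq_sum_dec hM hχ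
        rw [sum_eq_single j (fun i _ hi => by simp [h3 i hi]) (by simp), h2, Nat.cast_one, one_smul] at h4
        rw [← h4, pReg_of_reg hg, pReg_of_reg (show IsPRegular p g⁻¹ by rwa [IsPRegular, orderOf_inv]), hr])
      hc' hc2'
    have := arith_dec S (dec χ) Sim.dim (fun j => rk (eigE e (red M c) (j.rep y))) (n := t * e + 1) (t := t)
      (fun j hj => (mem_filter.1 hj).2.1)
      ((sum_le_sum_of_subset (subset_univ _)).trans (by omega)) (by omega) (fun j hj => ?_) (fun j hj => (hR j hj).1)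
      fun j hj h => (hR j hj).2 t (by rwa [finrank_fin_fun]) (by rw [finrank_fin_fun]; omega)
    · omega
    · by_contra hlt
      refine hno (exists_hom_of_small K j.rep (by omega) (pow_finrank_eq_zero ⟨p, sub_one_pow_p K _⟩)
        (mem_filter.1 hj).2.2 ?_)
      rw [finrank_fin_fun]; omega
  obtain ⟨φ, hφ⟩ := key
  have hk : φ.ker = ⊥ := φ.normal_ker.eq_bot_or_eq_top.resolve_right fun h => hφ (h ▸ mem_top x : x ∈ φ.ker)
  rcases psl_or_of_hom K (by omega) hn φ hφ (hk ▸ bot_le) with h | ⟨-, ψ, h1, h2⟩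
  · have := Nat.le_mul_of_pos_left e ht0
    omega
  · exact ⟨MulEquiv.ofBijective ψ ⟨(MonoidHom.ker_eq_bot_iff ψ).1 (h2.trans hk), h1⟩⟩

end CL.Inv.Tuan
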