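/-
Groups of prime degree with a dihedral normaliser, III: the character of degree `p + 1`.
-/
import Cfsg.Agent.Inv.Tuan2
import Cfsg.Agent.Inv.PrimeDeg
import Cfsg.Agent.Blk.DefectNum

set_option autoImplicit false
set_option linter.unusedSectionVars false
set_option linter.style.haveILetI false

open Finset Subgroup CL.Inv.PO CL.Char CL.Blk Cfsg MulAction
open scoped MatrixGroups ComplexConjugate Classical

namespace CL.Inv.Tuan

/-- Power sums determine a multiset of complex numbers. -/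
theorem multiset_eq_of_pow_sum (s t : Multiset ℂ)
    (h : ∀ k : ℕ, (s.map (· ^ k)).sum = (t.map (· ^ k)).sum) : s = t := by
  have hli := linearIndependent_iff'.1 ((linearIndependent_monoidHom (Multiplicative ℕ) ℂ).comp
    (powersHom ℂ) (powersHom ℂ).injective) (s + t).toFinset
    (fun z => (s.count z : ℂ) - t.count z) (funext fun k => by
      have e : ∀ u : Multiset ℂ, u.toFinset ⊆ (s + t).toFinset → (u.map (· ^ k.toAdd)).sum =
          ∑ z ∈ (s + t).toFinset, (u.count z : ℂ) * z ^ k.toAdd := fun u hu => by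
        rw [sum_multiset_map_count, sum_subset hu fun z _ hz => by
          rw [Multiset.count_eq_zero.2 (by simpa using hz), zero_smul]]
        simp
      have := h k.toAdd
      rw [e s (by simp), e t (by simp)] at this
      simpa [sub_mul, sub_eq_zero] using this)
  ext z
  by_cases hz : z ∈ (s + t).toFinset
  · exact_mod_cast sub_eq_zero.1 (hli z hz)
  · simp only [Multiset.toFinset_add, mem_union, Multiset.mem_toFinset, not_or] at hz
    rw [Multiset.count_eq_zero.2 hz.1, Multiset.count_eq_zero.2 hz.2]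

variable {G : Type*} [Group G]

theorem hom_eq_one_of_perfect (hperf : commutator G = ⊤) (δ : G →* ℂˣ) (g : G) : δ g = 1 :=
  Abelianization.commutator_subset_ker δ (hperf ▸ mem_top g)

/-- The determinant of a generalized character of a perfect group is trivial. -/
theorem prod_eq_of_perfect [Finite G] (hperf : commutator G = ⊤) {Ψ : G → ℂ}
    (hΨ : IsGeneralizedCharacter G Ψ) (y : G) (s t : Multiset ℂ)
    (h : ∀ k : ℕ, Ψ (y ^ k) + (t.map (· ^ k)).sum = (s.map (· ^ k)).sum) : s.prod = t.prod := by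
  obtain ⟨φ, ψ, hφ, hψ, rfl⟩ := hΨ
  obtain ⟨δ, hδ⟩ := exists_det_hom hφ
  obtain ⟨ε, hε⟩ := exists_det_hom hψ
  obtain ⟨n, μ, -, h1, h2⟩ := hδ y
  obtain ⟨m, ν, -, h3, h4⟩ := hε y
  have := congrArg Multiset.prod (multiset_eq_of_pow_sum (univ.val.map μ + t) (univ.val.map ν + s) fun k => by
    have e := h k
    rw [Pi.sub_apply, h1, h3] at e
    simp only [Multiset.map_add, Multiset.sum_add, Multiset.map_map, Function.comp_def]
    change ∑ i, μ i ^ k + _ = ∑ i, ν i ^ k + _
    linear_combination e)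
  rw [Multiset.prod_add, Multiset.prod_add] at this
  change (∏ i, μ i) * _ = (∏ i, ν i) * _ at this
  rw [← h2, ← h4, hom_eq_one_of_perfect hperf, hom_eq_one_of_perfect hperf] at this
  simpa using this.symm

/-- Induction from an abelian TI-subgroup of index two in its normaliser. -/
theorem indFun_TI [Fintype G] {E : Subgroup G} (hc : ∀ u ∈ E, ∀ v ∈ E, u * v = v * u)
    (hNE : Nat.card (normalizer (E : Set G)) = 2 * Nat.card E)
    (hTI : ∀ g, g ∉ normalizer (E : Set G) → ∀ u ∈ E, g⁻¹ * u * g ∈ E → u = 1) {w : G}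
    (hw : w ∈ normalizer (E : Set G)) (hwE : w ∉ E) (f : E → ℂ) (hf : f 1 = 0) (u v : E)
    (hv : (v : G) = w⁻¹ * u * w) : indFun E f u = f u + f v := by
  refine mul_left_cancel₀ (natCard_subgroup_ne_zero E) ?_
  have hi : (E.subgroupOf (normalizer (E : Set G))).index = 2 := by
    have := (E.subgroupOf (normalizer (E : Set G))).index_mul_card
    rw [hNE, Nat.card_congr (subgroupOfEquivOfLe le_normalizer).toEquiv] at this
    exact Nat.eq_of_mul_eq_mul_right Nat.card_pos this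
  have h1 : ∀ z : G, extendByZero E f (z⁻¹ * u * z) = (if z ∈ E then f u else 0) +
      if w⁻¹ * z ∈ E then f v else 0 := fun z => by
    have h2 : ∀ {a : E} {z : G}, z ∈ E → z⁻¹ * a * z = a := fun {a z} hz => by
      rw [mul_assoc, hc a a.2 z hz, inv_mul_cancel_left]
    by_cases hz : z ∈ E
    · rw [if_pos hz, if_neg fun h => hwE (by simpa using inv_mem (mul_mem h (inv_mem hz))), h2 hz,
        extendByZero_coe, add_zero]
    by_cases hz' : w⁻¹ * z ∈ E
    · rw [if_neg hz, if_pos hz', zero_add, ← extendByZero_coe f v, ← h2 (a := v) hz', hv]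
      congr 1; group
    rw [if_neg hz, if_neg hz', add_zero]
    by_cases hu : z⁻¹ * u * z ∈ E
    · have := hTI z (fun hN => hz' (by
        have := (mul_mem_iff_of_index_two hi (a := ⟨w⁻¹, inv_mem hw⟩) (b := ⟨z, hN⟩)).2
          (by simp [mem_subgroupOf, hwE, hz])
        exact mem_subgroupOf.1 this)) u u.2 hu
      rw [this, mul_one, inv_mul_cancel, extendByZero_one, hf]
    · exact extendByZero_of_not_mem f hu
  rw [card_mul_indFun, sum_congr rfl fun z _ => h1 z, sum_add_distrib,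
    show ∑ z : G, (if w⁻¹ * z ∈ E then f v else 0) = _ from
      Equiv.sum_comp (Equiv.mulLeft w⁻¹) (fun z => if z ∈ E then f v else 0), ← sum_filter, ← sum_filter, sum_const, sum_const, mul_add,
    nsmul_eq_mul, nsmul_eq_mul, Nat.card_eq_fintype_card, Fintype.card_subtype]

variable [Fintype G] {p : ℕ} [hp : Fact p.Prime] {x : G}

theorem exists_lin_of_deg (K : Ctx p x (zpowers x)) {φ : G → ℂ} (hφ : IsCharacter G φ) (h1 : φ 1 = p)
    (h0 : ∀ g, p ∣ orderOf g → φ g = 0) : ∃ ψ : Nz x →* ℂˣ, ∀ n : Nz x, (n : G) ∉ zpowers x → φ n = ψ n := by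
  obtain ⟨γ, hγ, e1, e2, -⟩ := K.exists_fixed_part le_rfl hφ
  rw [sum_zmod_units, sum_eq_zero fun k _ => h0 _ (K.sing_pow_val k), ZMod.val_zero, pow_zero, h1,
    add_zero] at e1
  obtain ⟨ψ, hψ⟩ := hγ.exists_monoidHom_of_one
    (mul_left_cancel₀ (Nat.cast_ne_zero.2 hp.out.ne_zero) (e1.trans (mul_one _).symm))
  exact ⟨ψ, fun n hn => by rw [← e2 n hn, hψ]⟩

theorem perfect_of_unique (K : Ctx p x (zpowers x)) {θ : G → ℂ} (hθ : IsIrrCharacter G θ) (h1 : θ 1 = p)
    (huniq : ∀ χ, IsIrrCharacter G χ → χ 1 = p → χ = θ) (h0 : ∀ g, p ∣ orderOf g → θ g = 0) {y : G}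
    (hy : y ∈ Nz x) (hyP : y ∉ zpowers x) : commutator G = ⊤ := by
  obtain ⟨ψ, hψ⟩ := exists_lin_of_deg K hθ.isCharacter h1 h0
  refine eq_top_iff.2 fun g _ => mem_commutator_iff_forall_monoidHom.2 fun ν => ?_
  have h2 : ∀ n ∈ Nz x, n ∉ zpowers x → n ∈ ν.ker := fun n hn hn' => by
    have := congrFun (huniq _ (hθ.monoidHom_mul ν) (by simp [h1])) n
    rw [hψ ⟨n, hn⟩ hn'] at this
    exact Units.ext ((mul_eq_right₀ (ψ _).ne_zero).1 this)
  have h3 : Nz x ≤ ν.ker := fun n hn => by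
    by_cases hn' : n ∈ zpowers x
    · simpa using mul_mem (h2 (n * y) (mul_mem hn hy) fun h => hyP (by simpa using mul_mem (inv_mem hn') h))
        (inv_mem (h2 y hy hyP))
    · exact h2 n hn hn'
  have h4 := K.syl.normalizer_sup_eq_top' (N := ν.ker) (le_normalizer.trans h3)
  exact (h4.ge.trans (sup_le h3 le_rfl) (mem_top g) : g ∈ ν.ker)

/-- A context with a prescribed complement. -/
theorem exists_ctx_of_compl (K : Ctx p x (zpowers x)) {E : Subgroup G} (h1 : zpowers x ⊔ E = Nz x)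
    (h2 : zpowers x ⊓ E = ⊥) : ∃ (K : Ctx p x (zpowers x)) (y : G) (hy : y ∈ Nz x), K.H = zpowers y ∧
      E = zpowers y ∧ orderOf y = K.f ∧ orderOf (K.a ⟨y, hy⟩) = K.f := by
  have hE : E ≤ Nz x := h1 ▸ le_sup_right
  have hinf : ∀ g ∈ E, g ∈ zpowers x → g = 1 := fun g a b => mem_bot.1 (h2 ▸ mem_inf.2 ⟨b, a⟩)
  have hπ : ∀ g, ∃ h, g ∈ Nz x → h ∈ E ∧ h⁻¹ * g ∈ zpowers x := fun g => by
    by_cases hg : g ∈ Nz x
    swap
    · exact ⟨1, fun h => (hg h).elim⟩
    have := Ctx.normal_subgroupOf (x := x) le_rfl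
    have h3 : (⟨g, hg⟩ : Nz x) ∈ E.subgroupOf (Nz x) ⊔ (zpowers x).subgroupOf (Nz x) := by
      rw [← subgroupOf_sup hE le_normalizer, sup_comm, h1, subgroupOf_self]; trivial
    obtain ⟨h, hh, u, hu, e⟩ := mem_sup_of_normal_right.1 h3
    exact ⟨h, fun _ => ⟨hh, by rw [← show (h : G) * u = g from congrArg Subtype.val e]; simpa using mem_subgroupOf.1 hu⟩⟩
  choose π hπ using hπ
  let K' : Ctx p x (zpowers x) :=
    { K with
      H := E
      π := π
      H_le := hE
      H_inf := hinf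
      H_card := fun h => by
        obtain ⟨g, hg⟩ := exists_prime_orderOf_dvd_card' p h
        have h3 : (g : G) ^ p = 1 := by rw [← Subgroup.coe_pow, ← hg, pow_orderOf_eq_one]; rfl
        have h4 : g = 1 := Subtype.ext (hinf g g.2 (K.mem_P_of_pow_eq_one (hE g.2) h3))
        exact hp.out.ne_one (by rw [← hg, h4, orderOf_one])
      π_mem := fun g hg => (hπ g hg).1
      π_spec := fun g hg => (hπ g hg).2
      lam_eq_one := fun c => (K.lam_eq_one c).trans ⟨fun h => K.H_inf c h c.2 ▸ one_mem _,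
        fun h => hinf c h c.2 ▸ one_mem _⟩ }
  obtain ⟨n, hn⟩ := K.exists_orderOf_a
  have hy := hE (hπ n n.2).1
  have h3 : K.a ⟨π n, hy⟩ = K.a n := by
    rw [← inv_mul_eq_one, ← map_inv, ← map_mul]
    exact (K.a_eq_one_iff _).2 (hπ n n.2).2
  have h4 : Nat.card E ≤ K.f := Nat.card_le_card_of_injective
    (fun g : E => (⟨K.a ⟨g, hE g.2⟩, _, rfl⟩ : K.a.range)) fun g h e => by
      have : K.a (⟨g, hE g.2⟩⁻¹ * ⟨h, hE h.2⟩) = 1 := by
        rw [map_mul, map_inv, inv_mul_eq_one]; exact congrArg Subtype.val e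
      exact Subtype.ext (inv_mul_eq_one.1 (hinf _ (mul_mem (inv_mem g.2) h.2) ((K.a_eq_one_iff _).1 this)))
  have h5 : K.f ≤ orderOf (π n) := by
    rw [← hn, ← h3, ← orderOf_mk _ hy]
    exact Nat.le_of_dvd (orderOf_pos _) (orderOf_map_dvd _ _)
  have h6 : zpowers (π n) = E := eq_of_le_of_card_ge (zpowers_le.2 (hπ n n.2).1)
    (by rw [Nat.card_zpowers]; omega)
  refine ⟨K', π n, hy, h6.symm, h6.symm, le_antisymm ?_ h5, (congrArg orderOf h3).trans hn⟩
  rw [← Nat.card_zpowers, h6]; exact h4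

theorem psl_of_TI [IsSimpleGroup G] (K : Ctx p x (zpowers x)) (hn : ¬ (zpowers x).Normal)
    (hperf : commutator G = ⊤) {y : G} (hy : y ∈ Nz x) (hH : K.H = zpowers y) (he : orderOf y = K.f)
    (ha : orderOf (K.a ⟨y, hy⟩) = K.f) (h3 : 3 ≤ K.f) {θ π : G → ℂ} (hθ : IsIrrCharacter G θ)
    (hθ1 : θ 1 = p) (hθ0 : ∀ g, p ∣ orderOf g → θ g = 0) (hθr : ∀ g, θ g⁻¹ = θ g) (hπ : IsCharacter G π)
    (hπ1 : π 1 = p) (hπ0 : ∀ g, p ∣ orderOf g → π g = 0) (hπn : ∀ g, ∃ n : ℕ, π g = n)
    (hNE : Nat.card (normalizer (zpowers y : Set G)) = 2 * Nat.card (zpowers y))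
    (hTI : ∀ g, g ∉ normalizer (zpowers y : Set G) → ∀ u ∈ zpowers y, g⁻¹ * u * g ∈ zpowers y → u = 1) :
    Nonempty (G ≃* PSL(2, ZMod p)) := by
  set e := K.f with hf
  have hEP : ∀ u ∈ zpowers y, u ≠ 1 → u ∉ zpowers x := fun u hu h1 h2 => h1 (K.H_inf u (hH ▸ hu) h2)
  have hEN : zpowers y ≤ Nz x := zpowers_le.2 hy
  have hπE : ∀ u ∈ zpowers y, u ≠ 1 → π u = 1 := fun u hu h1 => by
    obtain ⟨ψ, hψ⟩ := exists_lin_of_deg K hπ hπ1 hπ0
    obtain ⟨n, h2⟩ := hπn u
    have h4 := norm_monoidHom_apply ψ ⟨u, hEN hu⟩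
    rw [← hψ _ (hEP u hu h1), h2, Complex.norm_natCast, Nat.cast_eq_one] at h4
    rw [h2, h4, Nat.cast_one]
  have hθE : ∀ u ∈ zpowers y, u ≠ 1 → θ u = 1 := fun u hu h1 => by
    obtain ⟨ψ, hψ⟩ := exists_lin_of_deg K hθ.isCharacter hθ1 hθ0
    have h2 := prod_eq_of_perfect hperf (hθ.isGeneralizedCharacter.sub hπ.isGeneralizedCharacter) u
      {(ψ ⟨u, hEN hu⟩ : ℂ)} {1} fun k => by
        simp only [Multiset.map_singleton, Multiset.sum_singleton, one_pow, Pi.sub_apply]
        rw [← Units.val_pow_eq_pow_val, ← map_pow]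
        by_cases hk : u ^ k = 1
        · rw [hk, hθ1, hπ1, show (⟨u, hEN hu⟩ : Nz x) ^ k = 1 from Subtype.ext hk]; simp
        · rw [hπE _ (pow_mem hu k) hk, ← hψ _ (hEP _ (pow_mem hu k) hk)]; simp
    rw [hψ ⟨u, hEN hu⟩ (hEP u hu h1)]
    simpa using h2
  obtain ⟨t, ht⟩ : ∃ t, p = 2 * t * e + 1 := by
    obtain ⟨t, ht⟩ := K.f_dvd
    have hp1 := hp.out.two_le
    have : Even t := by
      rcases Nat.even_or_odd e with h | h
      · obtain ⟨δ, hδ⟩ := exists_det_hom hπ
        obtain ⟨n, μ, h1, h2, h4⟩ := hδ y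
        rw [prod_eq_of_power_sums (t := t) (c := 1) (by omega) h μ (he ▸ h1) (one_pow e)
          (by have := h2 0
              simp only [pow_zero, sum_const, card_univ, nsmul_eq_mul, mul_one] at this
              rw [← this, hπ1]; exact_mod_cast (by rw [mul_comm, ← ht]; omega : p = t * e + 1))
          (fun k h5 h6 => by
            rw [← h2, hπE _ (npow_mem_zpowers _ _) (pow_ne_one_of_lt_orderOf h5.ne' (he ▸ h6))]; simp),
          hom_eq_one_of_perfect hperf, one_pow, mul_one] at h4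
        exact (neg_one_pow_eq_one_iff_even (by norm_num)).1 h4.symm
      · refine (Nat.even_mul.1 (ht ▸ hp.out.even_sub_one ?_)).resolve_left (Nat.not_even_iff_odd.2 h)
        have := Nat.le_of_dvd (by omega) K.f_dvd
        omega
    obtain ⟨s, rfl⟩ := this
    exact ⟨s, by rw [mul_comm _ e, two_mul, ← ht]; omega⟩
  obtain ⟨w, hw, hwE⟩ : ∃ w ∈ normalizer (zpowers y : Set G), w ∉ zpowers y := by
    by_contra! h
    have := card_le_of_le (show normalizer (zpowers y : Set G) ≤ zpowers y from h)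
    have := Nat.card_pos (α := zpowers y)
    omega
  have hζ := Complex.isPrimitiveRoot_exp e (by omega)
  set c := Complex.exp (2 * Real.pi * Complex.I / e)
  have hc0 : c ≠ 0 := hζ.ne_zero (by omega)
  let y' : zpowers y := ⟨y, mem_zpowers y⟩
  have hgen : ∀ u : zpowers y, u ∈ zpowers y' := fun ⟨_, k, rfl⟩ => ⟨k, rfl⟩
  let lam : zpowers y →* ℂˣ := monoidHomOfForallMemZpowers hgen (g' := Units.mk0 c hc0) (by
    rw [orderOf_dvd_iff_pow_eq_one, orderOf_mk, he]; exact Units.ext (by simpa using hζ.pow_eq_one))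
  have hlam : ∀ k : ℕ, (lam (y' ^ k) : ℂ) = c ^ k := fun k => by
    rw [map_pow, monoidHomOfForallMemZpowers_apply_gen]; rfl
  let f : zpowers y → ℂ := (fun u => ((1 : zpowers y →* ℂˣ) u : ℂ)) - fun u => (lam u : ℂ)
  have hf1 : f 1 = 0 := by simp [f]
  have hΨ : IsGeneralizedCharacter G (indFun _ f) := isGeneralizedCharacter_indFun
    ⟨_, _, (isIrrCharacter_linear _).isCharacter, (isIrrCharacter_linear _).isCharacter, rfl⟩
  have hind := indFun_TI (E := zpowers y) (fun u ⟨i, hi⟩ v ⟨j, hj⟩ => by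
    rw [← hi, ← hj]; exact (Commute.zpow_zpow_self y i j).eq) hNE hTI hw hwE f hf1
  obtain ⟨r, hr⟩ : ∃ r : ℕ, y ^ r = w⁻¹ * y * w := (Submonoid.mem_powers_iff _ _).1
    (mem_powers_iff_mem_zpowers.2 (by simpa using (mem_normalizer_iff.1 (inv_mem hw) y).1 (mem_zpowers y)))
  have hwy : w⁻¹ * y * w = y⁻¹ := by
    have h1 := prod_eq_of_perfect hperf hΨ y {1, 1} {c, c ^ r} fun k => by
      have h2 := hind (y' ^ k) (y' ^ (r * k)) (by
        simp only [y', SubmonoidClass.mk_pow, pow_mul, hr]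
        simpa using (conj_pow (a := w⁻¹) (b := y) (i := k)))
      simp only [f, Pi.sub_apply, hlam, MonoidHom.one_apply, Units.val_one] at h2
      simp only [Multiset.insert_eq_cons, Multiset.map_cons, Multiset.map_singleton, Multiset.sum_cons,
        Multiset.sum_singleton, one_pow, ← pow_mul]
      linear_combination h2
    simp only [Multiset.insert_eq_cons, Multiset.prod_cons, Multiset.prod_singleton, mul_one, ← pow_succ'] at h1
    rw [← hr, eq_inv_iff_mul_eq_one, ← pow_succ, ← orderOf_dvd_iff_pow_eq_one, he]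
    exact (hζ.pow_eq_one_iff_dvd _).1 h1.symm
  have hwu : ∀ u ∈ zpowers y, w⁻¹ * u * w = u⁻¹ := by
    rintro _ ⟨k, rfl⟩
    simpa [hwy] using (conj_zpow (a := w⁻¹) (b := y) (i := k)).symm
  have hres : (fun u : zpowers y => indFun _ f u) = f + ((fun u => ((1 : zpowers y →* ℂˣ) u : ℂ)) -
      fun u => (lam⁻¹ u : ℂ)) := funext fun u => by
    rw [hind u u⁻¹ (hwu u u.2).symm]; simp [f]
  have hc2 : c ^ 2 ≠ 1 := hζ.pow_ne_one_of_pos_of_lt two_ne_zero (by omega)
  have hl1 : lam ≠ 1 := fun h => hc2 (by rw [← hlam, h]; rfl)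
  have hl2 : lam ≠ lam⁻¹ := fun h => hc2 (by
    rw [← hlam, sq, map_mul]; nth_rw 1 [h]; simp)
  have hfin : ∀ φ : G → ℂ, IsClassFunction G φ → (∀ u ∈ zpowers y, u ≠ 1 → φ u = 1) →
      classInner (indFun _ f) φ = 1 := fun φ h1 h2 => by
    have : classInner f (fun u => ((1 : zpowers y →* ℂˣ) u : ℂ)) = 1 := by
      simp only [f, classInner_sub_left, classInner_monoidHom, hl1, if_true, if_false, sub_zero]
    rw [frobenius_reciprocity _ h1, ← this, classInner_def, classInner_def]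
    refine congrArg _ (sum_congr rfl fun u _ => ?_)
    by_cases hu : u = 1
    · rw [hu, hf1, zero_mul, zero_mul]
    · rw [h2 u u.2 fun h => hu (Subtype.ext h)]; rfl
  have i1 := hfin _ (irrOne G).2.isClassFunction fun _ _ _ => rfl
  have i2 := hfin _ hθ.isClassFunction hθE
  have i3 : classInner (indFun _ f) (indFun _ f) = 3 := by
    rw [frobenius_reciprocity _ (indFun_isClassFunction _), hres]
    simp only [f, classInner_sub_left, classInner_add_right, classInner_sub_right, classInner_monoidHom, hl1,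
      hl2, hl1.symm, if_true, if_false, show ¬ (1 : zpowers y →* ℂˣ) = lam⁻¹ from fun h =>
        hl1 (MonoidHom.ext fun u => inv_eq_one.1 (DFunLike.congr_fun h u).symm)]
    norm_num
  have i4 : classInner (irrOne G : G → ℂ) θ = 0 := (irrOne G).2.classInner_of_ne hθ fun h => by
    rw [← h] at hθ1; exact hp.out.ne_one (Nat.cast_eq_one.1 hθ1.symm)
  have hχ1 : ((irrOne G : G → ℂ) + θ - indFun _ f) 1 = (p + 1 : ℕ) := by
    simp [indFun_one, hf1, hθ1, coe_irrOne, add_comm]
  have hχ := (exc_irr_or_neg_of_norm_one (((irrOne G).2.isGeneralizedCharacter.add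
    hθ.isGeneralizedCharacter).sub hΨ) (by
      simp only [classInner_sub_left, classInner_add_left, classInner_sub_right, classInner_add_right, i1, i2, i3,
        i4, (irrOne G).2.classInner_self, hθ.classInner_self]
      rw [← conj_classInner (indFun _ f) θ, ← conj_classInner (indFun _ f) (irrOne G : G → ℂ),
        ← conj_classInner (irrOne G : G → ℂ) θ, i1, i2, i4]
      norm_num)).resolve_right fun h => by
    have := h.cast_charDegree
    rw [Pi.neg_apply, hχ1, eq_neg_iff_add_eq_zero, ← Nat.cast_add, Nat.cast_eq_zero] at this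
    omega
  refine psl_of_chi K hn hH hy he ha rfl ht hwy hχ.isCharacter (CL.Char.charDegree_eq_of_eq hχ1) (fun g => ?_)
    hζ.pow_eq_one hc2 fun i h1 h2 => ?_
  · simp only [Pi.sub_apply, Pi.add_apply, hθr, coe_irrOne, indFun_apply]
    rw [← Equiv.sum_comp (Equiv.mulRight w) fun z => extendByZero _ f (z⁻¹ * g * z)]
    refine congrArg (fun a => _ - _ * a) (sum_congr rfl fun z _ => ?_)
    rw [Equiv.coe_mulRight, show (z * w)⁻¹ * g * (z * w) = w⁻¹ * (z⁻¹ * g * z) * w by group,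
      show z⁻¹ * g⁻¹ * z = (z⁻¹ * g * z)⁻¹ by group]
    by_cases hz : z⁻¹ * g * z ∈ zpowers y
    · rw [hwu _ hz]
    · rw [extendByZero_of_not_mem _ (by rwa [inv_mem_iff]), extendByZero_of_not_mem _ fun h => hz
        ((mem_normalizer_iff.1 (inv_mem hw) _).2 (by simpa using h))]
  · have h4 := congrFun hres (y' ^ i)
    simp only [f, Pi.add_apply, Pi.sub_apply, MonoidHom.inv_apply, Units.val_inv_eq_inv_val, hlam,
      MonoidHom.one_apply, Units.val_one] at h4
    simp only [Pi.sub_apply, Pi.add_apply, coe_irrOne]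
    rw [hθE _ (npow_mem_zpowers _ _) (pow_ne_one_of_lt_orderOf h1.ne' (he ▸ h2)), inv_pow]
    linear_combination -h4

theorem card_le_centralizer {F : Type*} [Field F] [Finite F] (h2 : (2 : F) = 0) {g : SL(2, F)}
    (hg : orderOf g = 2) : Nat.card F ≤ Nat.card (centralizer ({g} : Set SL(2, F))) := by
  have h1 : (g : Matrix (Fin 2) (Fin 2) F) * g = 1 := by
    rw [← Matrix.SpecialLinearGroup.coe_mul, ← sq, orderOf_dvd_iff_pow_eq_one.1 hg.dvd]; rfl
  have hne : (g : Matrix (Fin 2) (Fin 2) F) - 1 ≠ 0 := fun h => by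
    rw [Subtype.ext (sub_eq_zero.1 h : g.1 = (1 : SL(2, F)).1)] at hg; simp at hg
  have hd := g.det_coe
  rw [Matrix.det_fin_two] at hd
  have ht : g.1 0 0 + g.1 1 1 = 0 := by
    have := congrFun (congrFun h1 0) 0
    have h3 := congrFun (congrFun h1 1) 1
    simp only [Matrix.mul_apply, Fin.sum_univ_two, Matrix.one_apply_eq] at this h3
    exact pow_eq_zero_iff two_ne_zero |>.1 (by
      linear_combination this + h3 + (g.1 0 0 * g.1 1 1 - g.1 0 1 * g.1 1 0 + 1 - g.1 0 1 * g.1 1 0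
        + g.1 0 1 * g.1 1 0) * h2)
  refine Nat.card_le_card_of_injective (fun c => (⟨⟨1 + c • (g.1 - 1), by
    simp only [Matrix.det_fin_two, Matrix.add_apply, Matrix.smul_apply, Matrix.sub_apply, Matrix.one_apply_eq,
      Matrix.one_apply_ne (show (0 : Fin 2) ≠ 1 by decide), Matrix.one_apply_ne (show (1 : Fin 2) ≠ 0 by decide),
      smul_eq_mul]
    linear_combination c ^ 2 * hd + (c - c ^ 2) * ht + (c ^ 2 - c) * h2⟩,
    mem_centralizer_singleton_iff.2 (Subtype.ext (show (1 + c • (g.1 - 1)) * g.1 = g.1 * (1 + c • (g.1 - 1)) by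
      simp [add_mul, mul_add, sub_mul, mul_sub]))⟩ :
      centralizer ({g} : Set SL(2, F)))) fun c d h => ?_
  exact smul_left_injective F hne (add_left_cancel (congrArg (fun a => a.1.1) h))

end CL.Inv.Tuan
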